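import Mathlib

/-!
# Half-transitive groups of automorphisms (Isaacs--Passman)
-/

set_option autoImplicit false

open MulAction
open scoped Pointwise

namespace Cfsg.Agent.GT.Frob

/-- If all orbits have the same size `k`, then `k` divides the number of points. -/
theorem dvd_card_of_forall_index_stabilizer {L X : Type*} [Group L] [MulAction L X] [Finite X]
    {k : ℕ} (h : ∀ x : X, (stabilizer L x).index = k) : k ∣ Nat.card X := by
  classical
  have := Fintype.ofFinite X
  have := Fintype.ofFinite (orbitRel.Quotient L X)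
  rw [Nat.card_congr (selfEquivSigmaOrbits L X), Nat.card_sigma]
  refine Finset.dvd_sum fun q _ => ?_
  rw [← h q.out, index_stabilizer]
  exact dvd_of_eq (Nat.card_coe_set_eq _).symm

/-- On a block of size prime to the common orbit length all stabilisers coincide. -/
theorem stabilizer_le_of_block {A X : Type*} [Group A] [MulAction A X] {S : Set X} [Finite S]
    {m : ℕ} (hm : ∀ x ∈ S, (stabilizer A x).index = m) (hcop : m.Coprime (Nat.card S))
    (hS : ∀ (a : A), ∀ x ∈ S, a • x = x → a • S = S) {x y : X} (hx : x ∈ S) (hy : y ∈ S) :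
    stabilizer A x ≤ stabilizer A y := by
  let L := stabilizer A S
  have hle : ∀ z ∈ S, stabilizer A z ≤ L := fun z hz a ha => hS a z hz ha
  let T : SubMulAction L X :=
    { carrier := S
      smul_mem' := fun a z hz => by
        have : (a : A) • S = S := a.2
        rw [← this]; exact Set.smul_mem_smul_set hz }
  have h1 : ∀ z : T, (stabilizer L z).index = (stabilizer A y).relIndex L := by
    intro z
    have e : stabilizer L z = (stabilizer A z.1).subgroupOf L := by
      ext a; simp [Subtype.ext_iff, Subgroup.mem_subgroupOf, Subgroup.smul_def]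
    have h2 := Subgroup.relIndex_mul_index (hle z z.2)
    have h3 := Subgroup.relIndex_mul_index (hle y hy)
    rw [hm _ z.2] at h2
    rw [hm _ hy] at h3
    have hS0 : Nat.card S ≠ 1 ∨ z.1 = y := by
      by_cases h : Nat.card S = 1
      · exact Or.inr (congrArg Subtype.val
          ((Nat.card_eq_one_iff_unique.mp h).1.elim (⟨z.1, z.2⟩ : S) ⟨y, hy⟩))
      · exact Or.inl h
    rcases hS0 with h | h
    · have hm0 : m ≠ 0 := by rintro rfl; exact h (by simpa using hcop)
      have hL0 : L.index ≠ 0 := by rintro e; rw [e, mul_zero] at h2; exact hm0 h2.symm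
      rw [e]
      exact Nat.eq_of_mul_eq_mul_right (Nat.pos_of_ne_zero hL0) (h2.trans h3.symm)
    · rw [e, h]; rfl
  have : Finite T := ‹Finite S›
  have h2 : (stabilizer A y).relIndex L ∣ Nat.card S := dvd_card_of_forall_index_stabilizer h1
  have h3 : (stabilizer A y).relIndex L ∣ m :=
    hm y hy ▸ Subgroup.relIndex_dvd_index_of_le (hle y hy)
  exact (hle x hx).trans (Subgroup.relIndex_eq_one.mp (Nat.eq_one_of_dvd_coprimes hcop h3 h2))

variable {A N : Type*} [Group A] [Group N] [Finite N] [MulDistribMulAction A N]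

theorem coprime_of_halfTransitive {m : ℕ} (hm : ∀ x : N, x ≠ 1 → (stabilizer A x).index = m)
    (U : Subgroup N) (hU : ∀ a : A, ∀ u ∈ U, a • u ∈ U) : m.Coprime (Nat.card U) := by
  let T : SubMulAction A N :=
    { carrier := (U : Set N) \ {1}
      smul_mem' := fun a z hz => ⟨hU a z hz.1, fun e => hz.2 (MulAction.injective a (e.trans (smul_one a).symm))⟩ }
  have h1 : m ∣ Nat.card T := dvd_card_of_forall_index_stabilizer (L := A) fun z => by
    rw [← hm z.1 z.2.2]
    congr 1
    ext a; simp [Subtype.ext_iff]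
  have h2 : Nat.card T + 1 = Nat.card U := Set.ncard_sdiff_singleton_add_one U.one_mem
  rw [← h2]
  exact Nat.Coprime.coprime_dvd_left h1 (by simp)

variable [Finite A]

omit [Finite N] in
theorem stabilizer_eq_of_le_of_halfTransitive {m : ℕ}
    (hm : ∀ x : N, x ≠ 1 → (stabilizer A x).index = m) {x y : N} (hx : x ≠ 1) (hy : y ≠ 1)
    (h : stabilizer A x ≤ stabilizer A y) : stabilizer A x = stabilizer A y := by
  refine Subgroup.eq_of_le_of_card_ge h (le_of_eq ?_)
  have h1 := (stabilizer A x).index_mul_card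
  have h2 := (stabilizer A y).index_mul_card
  rw [hm x hx] at h1
  rw [hm y hy] at h2
  have h0 : 0 < m := hm x hx ▸ Nat.pos_of_ne_zero Subgroup.index_ne_zero_of_finite
  exact Nat.eq_of_mul_eq_mul_left h0 (h2.trans h1.symm)

omit [Finite N] in
theorem stabilizer_ne_bot_of_halfTransitive {m : ℕ}
    (hm : ∀ x : N, x ≠ 1 → (stabilizer A x).index = m)
    (hne : ∃ x : N, x ≠ 1 ∧ stabilizer A x ≠ ⊥) {y : N} (hy : y ≠ 1) : stabilizer A y ≠ ⊥ := by
  obtain ⟨x, hx, hx'⟩ := hne
  intro e
  exact hx' ((stabilizer_eq_of_le_of_halfTransitive hm hy hx (e ▸ bot_le)).symm.trans e)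

variable [FaithfulSMul A N]

/-- A half-transitive group of automorphisms that is not semiregular acts irreducibly. -/
theorem eq_bot_or_eq_top_of_halfTransitive {m : ℕ}
    (hm : ∀ x : N, x ≠ 1 → (stabilizer A x).index = m)
    (hne : ∃ x : N, x ≠ 1 ∧ stabilizer A x ≠ ⊥)
    (U : Subgroup N) (hU : ∀ a : A, ∀ u ∈ U, a • u ∈ U) : U = ⊥ ∨ U = ⊤ := by
  by_contra hcon
  push Not at hcon
  obtain ⟨⟨u, hu⟩, hu1⟩ := Subgroup.ne_bot_iff_exists_ne_one.mp hcon.1
  have hu1 : u ≠ 1 := by simpa using hu1
  have key : ∀ x ∉ U, ∀ v ∈ U, stabilizer A x ≤ stabilizer A v := by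
    intro x hx v hv a ha
    have hcard : Nat.card (x • (U : Set N) :) = Nat.card U := Set.natCard_smul_set x _
    have h1 := stabilizer_le_of_block (A := A) (S := x • (U : Set N)) (m := m) (x := x) (y := x * v)
      (by rintro _ ⟨w, hw, rfl⟩
          exact hm _ fun e => hx (by rw [eq_inv_of_mul_eq_one_left e]; exact U.inv_mem hw))
      (hcard ▸ coprime_of_halfTransitive hm U hU)
      (by rintro b _ ⟨w, hw, rfl⟩ hb
          refine Set.eq_of_subset_of_ncard_le ?_ (Set.ncard_smul_set b _).ge
          rintro _ ⟨_, ⟨w', hw', rfl⟩, rfl⟩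
          refine ⟨w * b • (w⁻¹ * w'), U.mul_mem hw (hU _ _ (U.mul_mem (U.inv_mem hw) hw')), ?_⟩
          simp only [smul_eq_mul] at hb ⊢
          rw [← mul_assoc, ← hb, ← smul_mul']
          congr 1; group)
      ⟨1, U.one_mem, mul_one x⟩ ⟨v, hv, rfl⟩ ha
    rw [mem_stabilizer_iff] at ha h1 ⊢
    rwa [smul_mul', ha, mul_right_inj] at h1
  refine stabilizer_ne_bot_of_halfTransitive hm hne hu1 (eq_bot_iff.mpr fun a ha => ?_)
  have key2 : ∀ x ∉ U, a • x = x := fun x hx => by
    rw [← stabilizer_eq_of_le_of_halfTransitive hm (x := x) (fun e => hx (e ▸ U.one_mem)) hu1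
      (key x hx u hu)] at ha
    exact ha
  obtain ⟨x, hx⟩ : ∃ x, x ∉ U := by
    by_contra h
    push Not at h
    exact hcon.2 (eq_top_iff.mpr fun x _ => h x)
  refine eq_of_smul_eq_smul (α := N) fun y => ?_
  rw [one_smul]
  by_cases hy : y ∈ U
  · exact key x hx y hy (key2 x hx)
  · exact key2 y hy

/-- A group with a half-transitive group of automorphisms that is not semiregular is abelian. -/
theorem mul_comm_of_halfTransitive {m : ℕ}
    (hm : ∀ x : N, x ≠ 1 → (stabilizer A x).index = m)
    (hne : ∃ x : N, x ≠ 1 ∧ stabilizer A x ≠ ⊥) (x y : N) : x * y = y * x := by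
  have hcop : m.Coprime (Nat.card N) := by
    simpa using coprime_of_halfTransitive hm ⊤ fun _ _ _ => trivial
  have hconj : ∀ x g : N, stabilizer A x ≤ stabilizer A (g * x * g⁻¹) := by
    intro x g
    by_cases hx : x = 1
    · simp [hx]
    refine stabilizer_le_of_block (A := A) (S := orbit (ConjAct N) x) (m := m) ?_ ?_ ?_
      (mem_orbit_self x) ⟨ConjAct.toConjAct g, rfl⟩
    · rintro _ ⟨h, rfl⟩
      exact hm _ fun e => hx (MulAction.injective h (e.trans (smul_one h).symm))
    · refine hcop.coprime_dvd_right ?_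
      rw [Nat.card_coe_set_eq, ← index_stabilizer]
      exact Subgroup.index_dvd_card _
    · rintro b _ ⟨h, rfl⟩ hb
      refine Set.eq_of_subset_of_ncard_le ?_ (Set.ncard_smul_set b _).ge
      rintro _ ⟨_, ⟨h', rfl⟩, rfl⟩
      refine ⟨ConjAct.toConjAct (b • ConjAct.ofConjAct (h' * h⁻¹)) * h, ?_⟩
      simp only [mul_smul] at hb ⊢
      rw [← hb, ConjAct.smul_def, ConjAct.ofConjAct_toConjAct, ← smul_inv', ← smul_mul',
        ← smul_mul', ← ConjAct.smul_def, mul_smul, inv_smul_smul]
  -- elements with different stabilisers commute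
  have key : ∀ x y : N, x ≠ 1 → y ≠ 1 → stabilizer A x ≠ stabilizer A y → x * y = y * x := by
    intro x y hx hy hxy
    by_contra h
    have hc : x * y * x⁻¹ * y⁻¹ ≠ 1 := fun e => h (by rw [← mul_inv_eq_one, ← e]; group)
    refine hxy ((stabilizer_eq_of_le_of_halfTransitive hm hx hc fun a ha => ?_).trans
      (stabilizer_eq_of_le_of_halfTransitive hm hy hc fun a ha => ?_).symm)
    · have h1 : a • (y * x * y⁻¹) = y * x * y⁻¹ := hconj x y ha
      rw [mem_stabilizer_iff, show x * y * x⁻¹ * y⁻¹ = x * (y * x * y⁻¹)⁻¹ by group, smul_mul',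
        smul_inv', h1, ha]
    · have h1 : a • (x * y * x⁻¹) = x * y * x⁻¹ := hconj y x ha
      rw [mem_stabilizer_iff, smul_mul', smul_inv', h1, ha]
  by_cases hx : x = 1
  · simp [hx]
  by_cases hy : y = 1
  · simp [hy]
  by_cases hxy : stabilizer A x = stabilizer A y
  swap
  · exact key x y hx hy hxy
  obtain ⟨⟨a, ha⟩, ha1⟩ := Subgroup.ne_bot_iff_exists_ne_one.mp
    (stabilizer_ne_bot_of_halfTransitive hm hne hx)
  obtain ⟨z, hz⟩ : ∃ z : N, a • z ≠ z := by
    by_contra h
    push Not at h
    exact ha1 (Subtype.ext (eq_of_smul_eq_smul (α := N) fun y => by simpa using h y))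
  have hz1 : z ≠ 1 := by rintro rfl; exact hz (smul_one a)
  have hxz : a • (x * z) ≠ x * z := by rw [smul_mul', ha]; simpa using hz
  have h1 := key y z hy hz1 fun e => hz (show a ∈ stabilizer A z from e ▸ hxy ▸ ha)
  have h2 := key y (x * z) hy (fun e => hxz (by rw [e, smul_one]))
    fun e => hxz (show a ∈ stabilizer A (x * z) from e ▸ hxy ▸ ha)
  rw [mul_assoc, ← h1, ← mul_assoc, ← mul_assoc, mul_left_inj] at h2
  exact h2.symm

end Cfsg.Agent.GT.Frob
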