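import Mathlib
import Cfsg.Agent.GT.Factorized
import Cfsg.Agent.GT.PGroupChain

/-!
# Products of two abelian groups (Itô's theorems)
-/

set_option autoImplicit false

namespace Cfsg.Agent.GT.Fac

open Cfsg Subgroup
open scoped Pointwise commutatorElement

variable {G : Type*} [Group G] {L A B : Subgroup G}

theorem ito_comm (h : IsProd L A B) (hA : IsMulCommutative A) (hB : IsMulCommutative B)
    {a b a₁ b₁ : G} (ha : a ∈ A) (hb : b ∈ B) (ha₁ : a₁ ∈ A) (hb₁ : b₁ ∈ B) :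
    Commute ⁅a, b⁆ ⁅a₁, b₁⁆ := by
  have cA := PG.isMulCommutative_iff_forall.1 hA
  have cB := PG.isMulCommutative_iff_forall.1 hB
  -- the actions of `x ∈ A` and `y ∈ B` on `⁅a, b⁆` commute
  have key : ∀ a ∈ A, ∀ b ∈ B, ∀ x ∈ A, ∀ y ∈ B,
      (x * y) * ⁅a, b⁆ * (x * y)⁻¹ = (y * x) * ⁅a, b⁆ * (y * x)⁻¹ := by
    intro a ha b hb x hx y hy
    obtain ⟨b₂, hb₂, a₂, ha₂, e₂⟩ := h.symm.exists_mul (x * b * x⁻¹)
      (mul_mem (mul_mem (h.left_le hx) (h.right_le hb)) (inv_mem (h.left_le hx)))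
    obtain ⟨a₃, ha₃, b₃, hb₃, e₃⟩ := h.exists_mul (y * a * y⁻¹)
      (mul_mem (mul_mem (h.right_le hy) (h.left_le ha)) (inv_mem (h.right_le hy)))
    have c1 : ∀ u ∈ A, ∀ v ∈ A, ∀ w : G, ⁅u, w * v⁆ = ⁅u, w⁆ := by
      intro u hu v hv w
      simp only [commutatorElement_def, mul_inv_rev]
      rw [show u * (w * v) * u⁻¹ * (v⁻¹ * w⁻¹) = u * w * (v * u⁻¹) * v⁻¹ * w⁻¹ by group,
        cA v hv _ (inv_mem hu)]
      group
    have c2 : ∀ u ∈ B, ∀ v ∈ B, ∀ w : G, ⁅w * v, u⁆ = ⁅w, u⁆ := by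
      intro u hu v hv w
      simp only [commutatorElement_def, mul_inv_rev]
      rw [show w * v * u * (v⁻¹ * w⁻¹) * u⁻¹ = w * (v * u) * v⁻¹ * w⁻¹ * u⁻¹ by group,
        cB v hv u hu]
      group
    have f1 : ∀ u ∈ A, x * u * x⁻¹ = u := fun u hu => by rw [cA x hx u hu]; group
    have f2 : ∀ u ∈ B, y * u * y⁻¹ = u := fun u hu => by rw [cB y hy u hu]; group
    have l1 : (x * y) * ⁅a, b⁆ * (x * y)⁻¹ = ⁅a₃, b₂⁆ := by
      rw [show (x * y) * ⁅a, b⁆ * (x * y)⁻¹ = x * (y * ⁅a, b⁆ * y⁻¹) * x⁻¹ by group,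
        conjugate_commutatorElement, e₃, f2 b hb, c2 b hb b₃ hb₃, conjugate_commutatorElement,
        f1 a₃ ha₃, e₂, c1 a₃ ha₃ a₂ ha₂]
    have l2 : (y * x) * ⁅a, b⁆ * (y * x)⁻¹ = ⁅a₃, b₂⁆ := by
      rw [show (y * x) * ⁅a, b⁆ * (y * x)⁻¹ = y * (x * ⁅a, b⁆ * x⁻¹) * y⁻¹ by group,
        conjugate_commutatorElement, e₂, f1 a ha, c1 a ha a₂ ha₂, conjugate_commutatorElement,
        f2 b₂ hb₂, e₃, c2 b₂ hb₂ b₃ hb₃]
    rw [l1, l2]
  have := key a ha b hb a₁⁻¹ (inv_mem ha₁) b₁⁻¹ (inv_mem hb₁)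
  rw [Commute, SemiconjBy, commutatorElement_def a₁ b₁]
  calc ⁅a, b⁆ * (a₁ * b₁ * a₁⁻¹ * b₁⁻¹)
      = a₁ * b₁ * ((b₁⁻¹ * a₁⁻¹) * ⁅a, b⁆ * (b₁⁻¹ * a₁⁻¹)⁻¹) * a₁⁻¹ * b₁⁻¹ := by group
    _ = a₁ * b₁ * ((a₁⁻¹ * b₁⁻¹) * ⁅a, b⁆ * (a₁⁻¹ * b₁⁻¹)⁻¹) * a₁⁻¹ * b₁⁻¹ := by rw [this]
    _ = a₁ * b₁ * a₁⁻¹ * b₁⁻¹ * ⁅a, b⁆ := by group

/-- The derived subgroup of a product of two abelian groups is `⁅A, B⁆`. -/
theorem commutator_eq_of_isProd (h : IsProd L A B) (hA : IsMulCommutative A)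
    (hB : IsMulCommutative B) : ⁅L, L⁆ = ⁅A, B⁆ := by
  refine le_antisymm ?_ (commutator_mono h.left_le h.right_le)
  have cA := PG.isMulCommutative_iff_forall.1 hA
  have cB := PG.isMulCommutative_iff_forall.1 hB
  have hn : L ≤ normalizer ((⁅A, B⁆ : Subgroup G) : Set G) := by
    rw [← h.sup_eq]
    exact sup_le (normalizer_commutator_ge_left A B) (normalizer_commutator_ge_right A B)
  rw [commutator_le]
  intro g hg k hk
  obtain ⟨a, ha, b, hb, rfl⟩ := h.exists_mul g hg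
  obtain ⟨a', ha', b', hb', rfl⟩ := h.exists_mul k hk
  have e : ⁅a * b, a' * b'⁆ = (a * ⁅a', b⁆⁻¹ * a⁻¹) * ((a * a') * ⁅a⁻¹, b'⁆⁻¹ * (a * a')⁻¹) := by
    simp only [commutatorElement_def, mul_inv_rev, inv_inv]
    calc a * b * (a' * b') * (b⁻¹ * a⁻¹) * (b'⁻¹ * a'⁻¹)
        = a * b * a' * (b' * b⁻¹) * a⁻¹ * b'⁻¹ * a'⁻¹ := by group
      _ = a * b * a' * (b⁻¹ * b') * a⁻¹ * b'⁻¹ * a'⁻¹ := by rw [cB b' hb' _ (inv_mem hb)]
      _ = a * b * a' * b⁻¹ * a'⁻¹ * a⁻¹ * (a * a') * b' * a⁻¹ * b'⁻¹ * a * (a⁻¹ * a'⁻¹) := by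
        group
      _ = a * b * a' * b⁻¹ * a'⁻¹ * a⁻¹ * (a * a') * b' * a⁻¹ * b'⁻¹ * a * (a'⁻¹ * a⁻¹) := by
        rw [cA _ (inv_mem ha) _ (inv_mem ha')]
      _ = _ := by group
  rw [e]
  exact mul_mem
    (Tr.conj_mem_of_mem_normalizer (hn (h.left_le ha))
      (inv_mem (commutator_mem_commutator ha' hb)))
    (Tr.conj_mem_of_mem_normalizer (hn (h.left_le (mul_mem ha ha')))
      (inv_mem (commutator_mem_commutator (inv_mem ha) hb')))

/-- Itô's theorem: a product of two abelian groups is metabelian. -/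
theorem ito (h : IsProd L A B) (hA : IsMulCommutative A) (hB : IsMulCommutative B) :
    ⁅⁅L, L⁆, ⁅L, L⁆⁆ = ⊥ := by
  rw [commutator_eq_of_isProd h hA hB, commutator_eq_bot_iff_le_centralizer, Subgroup.commutator_def,
    centralizer_closure, closure_le]
  rintro _ ⟨a, ha, b, hb, rfl⟩ _ ⟨a₁, ha₁, b₁, hb₁, rfl⟩
  exact (ito_comm h hA hB ha₁ hb₁ ha hb).eq

theorem ito_derivedSeries (h : IsProd ⊤ A B) (hA : IsMulCommutative A) (hB : IsMulCommutative B) :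
    derivedSeries G 2 = ⊥ :=
  ito h hA hB

/-- Itô's second theorem: a nontrivial finite product of two abelian groups has a nontrivial
normal subgroup inside one of the factors. -/
theorem exists_normal_le_of_isProd [Finite G] [Nontrivial G] (h : IsProd ⊤ A B)
    (hA : IsMulCommutative A) (hB : IsMulCommutative B) :
    ∃ N : Subgroup G, N.Normal ∧ N ≠ ⊥ ∧ (N ≤ A ∨ N ≤ B) := by
  have cA := PG.isMulCommutative_iff_forall.1 hA
  have cB := PG.isMulCommutative_iff_forall.1 hB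
  set K : Subgroup G := ⁅(⊤ : Subgroup G), ⊤⁆ with hKdef
  have hK : K ≤ Subgroup.centralizer (K : Set G) :=
    commutator_eq_bot_iff_le_centralizer.1 (ito h hA hB)
  -- it suffices to find a nontrivial element of a factor centralizing `K`
  have main : ∀ {A B : Subgroup G}, IsProd ⊤ A B → IsMulCommutative A → IsMulCommutative B →
      ∀ a ∈ A, a ≠ 1 → a ∈ Subgroup.centralizer (K : Set G) →
      ∃ N : Subgroup G, N.Normal ∧ N ≠ ⊥ ∧ (N ≤ A ∨ N ≤ B) := by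
    intro A B h hA hB a ha ha1 haK
    by_cases hZ : center G ⊓ B = ⊥
    swap
    · exact ⟨center G ⊓ B, ⟨fun x hx g => by
        rwa [mem_center_iff.1 hx.1 g, mul_inv_cancel_right]⟩, hZ, Or.inr inf_le_right⟩
    have hn : (A ⊔ K).Normal := Normal.of_commutator_le G le_sup_right
    have hmem : a ∈ Subgroup.centralizer ((A ⊔ K : Subgroup G) : Set G) := by
      rw [Loc.centralizer_sup]
      exact ⟨PG.isMulCommutative_iff_le_centralizer.1 hA ha, haK⟩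
    refine ⟨Subgroup.centralizer ((A ⊔ K : Subgroup G) : Set G), inferInstance,
      fun e => ha1 (mem_bot.1 (e ▸ hmem)), Or.inl fun z hz => ?_⟩
    rw [Loc.centralizer_sup] at hz
    obtain ⟨a₁, ha₁, b₁, hb₁, rfl⟩ := h.exists_mul z trivial
    have h1 : b₁ ∈ Subgroup.centralizer (A : Set G) :=
      ((Subgroup.centralizer (A : Set G)).mul_mem_cancel_left
        (PG.isMulCommutative_iff_le_centralizer.1 hA ha₁)).1 hz.1
    have h2 : b₁ ∈ center G ⊓ B := by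
      refine ⟨mem_center_iff.2 fun g => ?_, hb₁⟩
      obtain ⟨x, hx, y, hy, rfl⟩ := h.exists_mul g trivial
      rw [mul_assoc, PG.isMulCommutative_iff_forall.1 hB y hy b₁ hb₁, ← mul_assoc, h1 x hx,
        mul_assoc]
    rw [hZ, mem_bot] at h2
    rw [h2, mul_one]
    exact ha₁
  by_cases hK0 : K = ⊥
  · obtain ⟨g, hg⟩ := exists_ne (1 : G)
    obtain ⟨a, ha, b, hb, rfl⟩ := h.exists_mul g trivial
    have : ∀ x : G, x ∈ Subgroup.centralizer (K : Set G) := fun x => by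
      rw [hK0]; intro y hy; rw [mem_bot.1 hy]; simp
    by_cases ha1 : a = 1
    · obtain ⟨N, h1, h2, h3⟩ := main h.symm hB hA b hb (by rintro rfl; simp [ha1] at hg) (this b)
      exact ⟨N, h1, h2, h3.symm⟩
    · exact main h hA hB a ha ha1 (this a)
  obtain ⟨p, hp, hpK⟩ := exists_prime_dvd_card_of_ne_bot hK0
  have := Fact.mk hp
  have hKc : IsMulCommutative K := PG.isMulCommutative_iff_le_centralizer.2 hK
  have := isNilpotent_of_isMulCommutative (G := K)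
  have := isNilpotent_of_isMulCommutative (G := A)
  have := isNilpotent_of_isMulCommutative (G := B)
  obtain ⟨hP, hPh⟩ := h.isProd_piCoreOf_singleton hp
  set P := piCoreOf {p} A ⊔ piCoreOf {p} B
  set V := piCoreOf {p} K
  have hVP : V ≤ P := (isPiHallOf_top_iff.1 hPh).normal_le (isPiNum_piCoreOf _ _)
  have hV0 : V ≠ ⊥ := by
    intro e
    have h1 := (isPiHallOf_piCoreOf {p} K).relIndex
    rw [show piCoreOf {p} K = ⊥ from e, relIndex_bot_left] at h1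
    exact h1 p hp hpK rfl
  have hPp : IsPGroup p P := (isPGroup_iff_isPiNum hp).2 hPh.card
  obtain ⟨w, ⟨hwV, hwP⟩, hw1⟩ := (bot_or_exists_ne_one _).resolve_left
    (PG.inf_centralizer_ne_bot_of_isPGroup
      (hPp.to_le hVP) hPp (by rw [normalizer_eq_top]; exact le_top) hV0)
  obtain ⟨b, hb, a, ha, e⟩ := hP.symm.exists_mul w (hVP hwV)
  have hwK : w ∈ K := piCoreOf_le K hwV
  have ha' : a ∈ A := piCoreOf_le A ha
  have hb' : b ∈ B := piCoreOf_le B hb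
  -- the key formula
  have form : ∀ b' ∈ B, ∀ a' ∈ A, b' * a' ∈ K →
      a⁻¹ * (b' * a') * a * (b' * a')⁻¹ = w⁻¹ * (b' * w * b'⁻¹) := by
    intro b' hb'' a' ha'' _
    have e1 : a = b⁻¹ * w := by rw [e]; group
    calc a⁻¹ * (b' * a') * a * (b' * a')⁻¹ = a⁻¹ * b' * (a' * a) * a'⁻¹ * b'⁻¹ := by group
      _ = a⁻¹ * b' * a * b'⁻¹ := by rw [cA a' ha'' a ha']; group
      _ = w⁻¹ * (b * b') * b⁻¹ * w * b'⁻¹ := by rw [e1]; group
      _ = w⁻¹ * (b' * w * b'⁻¹) := by rw [cB b hb' b' hb'']; group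
  have haK : a ∈ Subgroup.centralizer (K : Set G) := by
    have h1 : K ≤ Subgroup.centralizer {a} := by
      rw [← piCoreOf_sup_piCoreOf_compl {p} K]
      refine sup_le (fun k hk => ?_) (fun k hk => ?_)
      · obtain ⟨b', hb'', a', ha'', rfl⟩ := hP.symm.exists_mul k (hVP hk)
        have h2 := form b' (piCoreOf_le B hb'') a' (piCoreOf_le A ha'') (piCoreOf_le K hk)
        rw [hwP b' (hP.right_le hb''), mul_inv_cancel_right, inv_mul_cancel, mul_inv_eq_one,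
          mul_assoc, inv_mul_eq_iff_eq_mul] at h2
        exact mem_centralizer_singleton_iff.2 h2
      · obtain ⟨b', hb'', a', ha'', rfl⟩ := h.symm.exists_mul k trivial
        have h2 := form b' hb'' a' ha'' (piCoreOf_le K hk)
        have h3 : a⁻¹ * (b' * a') * a * (b' * a')⁻¹ ∈ V ⊓ piCoreOf {p}ᶜ K := by
          refine ⟨h2 ▸ V.mul_mem (V.inv_mem hwV) (Normal.conj_mem inferInstance _ hwV _), ?_⟩
          refine (piCoreOf {p}ᶜ K).mul_mem ?_ ((piCoreOf {p}ᶜ K).inv_mem hk)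
          simpa using Normal.conj_mem inferInstance _ hk a⁻¹
        rw [(isPiNum_piCoreOf _ _).inf_eq_bot (isPiNum_piCoreOf _ _), mem_bot, mul_inv_eq_one,
          mul_assoc, inv_mul_eq_iff_eq_mul] at h3
        exact mem_centralizer_singleton_iff.2 h3
    intro k hk
    exact mem_centralizer_singleton_iff.1 (h1 hk)
  by_cases ha1 : a = 1
  · rw [ha1, mul_one] at e
    obtain ⟨N, h1, h2, h3⟩ := main h.symm hB hA b hb' (e ▸ hw1) (e ▸ hK hwK)
    exact ⟨N, h1, h2, h3.symm⟩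
  · exact main h hA hB a ha' ha1 haK

end Cfsg.Agent.GT.Fac
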