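import Mathlib
import Cfsg.Agent.GT.ThompsonQd
import Cfsg.Agent.Loc.CFChief

/-!
# Quadratic pairs and the Borel subgroup of `SL(2, p)`

Two quadratic elements acting irreducibly and non-trivially on an elementary abelian group produce
a copy of `SL(2, p)` whose Borel subgroup normalizes a `p`-subgroup containing the first element.
-/

set_option autoImplicit false

namespace Cfsg.Agent.GT

open Subgroup Matrix
open scoped MatrixGroups commutatorElement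

section Ring

variable {K : Type*} [Field K] {p : ℕ} [hp : Fact p.Prime] {R : Type*} [Ring R]
  {H : Type*} [Group H]

/-- The matrices whose image under `Φ` is a value of `ρ`. -/
def fpSub (ρ : H →* R) (Φ : Matrix (Fin 2) (Fin 2) K →+* R) : Subgroup SL(2, K) where
  carrier := {l | ∃ h : H, ρ h = Φ l}
  one_mem' := ⟨1, by simp⟩
  mul_mem' := by
    rintro l m ⟨h, hh⟩ ⟨k, hk⟩
    exact ⟨h * k, by rw [map_mul, hh, hk, Matrix.SpecialLinearGroup.coe_mul, map_mul]⟩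
  inv_mem' := by
    rintro l ⟨h, hh⟩
    refine ⟨h⁻¹, ?_⟩
    have e1 : ρ h⁻¹ * ρ h = 1 := by rw [← map_mul, inv_mul_cancel, map_one]
    have e2 : Φ l * Φ (l⁻¹ : SL(2, K)) = 1 := by
      rw [← map_mul, ← Matrix.SpecialLinearGroup.coe_mul, mul_inv_cancel,
        Matrix.SpecialLinearGroup.coe_one, map_one]
    calc ρ h⁻¹ = ρ h⁻¹ * (Φ l * Φ (l⁻¹ : SL(2, K))) := by rw [e2, mul_one]
      _ = _ := by rw [← hh, ← mul_assoc, e1, one_mul]

theorem exists_quadratic_pair_aligned [Finite K] [CharP K p] (hp2 : p ≠ 2)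
    (ι : K →+* R) (ρ : H →* R) {a b : H}
    (hX : ∀ k, ι k * (ρ a - 1) = (ρ a - 1) * ι k) (hY : ∀ k, ι k * (ρ b - 1) = (ρ b - 1) * ι k)
    (ha : (ρ a - 1) * (ρ a - 1) = 0) (hb : (ρ b - 1) * (ρ b - 1) = 0) {c : K} (hc : c ≠ 0)
    (hZ : (ρ a - 1) * (ρ b - 1) + (ρ b - 1) * (ρ a - 1) = ι c) :
    ∃ x y : H, (ρ x - 1) * (ρ x - 1) = 0 ∧ (ρ y - 1) * (ρ y - 1) = 0 ∧
      (ρ x - 1) * (ρ y - 1) + (ρ y - 1) * (ρ x - 1) = -1 ∧
      (ρ x - 1) * (ρ a - 1) = 0 ∧ (ρ a - 1) * (ρ x - 1) = 0 := by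
  obtain ⟨Φ, h1, h2⟩ := exists_ringHom_of_quadratic ι hX hY ha hb hc hZ
  have := Fintype.ofFinite K
  have haL : slUp c ∈ fpSub ρ Φ := ⟨a, by rw [h1, add_sub_cancel]⟩
  obtain ⟨L₀, hL, ⟨e⟩⟩ := S0274.result p hp2 (fpSub ρ Φ)
    (one_lt_card_sylow_of_slUp_slLo_mem hc one_ne_zero haL ⟨b, by rw [h2, add_sub_cancel]⟩)
  let ψ₀ : SL(2, ZMod p) →* SL(2, K) := L₀.subtype.comp e.symm.toMonoidHom
  have hψ₀ : Function.Injective ψ₀ := L₀.subtype_injective.comp e.symm.injective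
  have hz : ∀ u : SL(2, K), u ^ p = 1 → IsPGroup p (zpowers u) := fun u hu => by
    obtain ⟨k, -, hk⟩ := (Nat.dvd_prime_pow hp.out).1
      (orderOf_dvd_of_pow_eq_one ((pow_one p).symm ▸ hu))
    exact IsPGroup.of_card ((Nat.card_zpowers _).trans hk)
  obtain ⟨T, h3, -, h4, h5⟩ := Tr.exists_sylowIn_ge (hz (slUp c) (by rw [slUp_pow]; simp))
    (zpowers_le.2 haL)
  obtain ⟨l, hl, h6⟩ := Tr.exists_conj_le_sylowIn h4 h5
    (hz (ψ₀ (slUp 1)) (by rw [← map_pow, slUp_pow]; simp)) (zpowers_le.2 (hL (e.symm _).2))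
  let ψ : SL(2, ZMod p) →* SL(2, K) := (MulAut.conj l).toMonoidHom.comp ψ₀
  have hψ : Function.Injective ψ := (MulAut.conj l).injective.comp hψ₀
  have hψL : ∀ A, ψ A ∈ fpSub ρ Φ := fun A => mul_mem (mul_mem hl (hL (e.symm A).2)) (inv_mem hl)
  obtain ⟨x, hx⟩ := hψL (slUp 1)
  obtain ⟨y, hy⟩ := hψL (slLo (-1))
  have hu : ψ (slUp 1) ^ p = 1 := by rw [← map_pow, slUp_pow]; simp
  have hw : ψ (slLo (-1)) ^ p = 1 := by rw [← map_pow, slLo_pow]; simp
  have hbr : ψ (slUp 1) * ψ (slLo (-1)) * ψ (slUp 1) =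
      ψ (slLo (-1)) * ψ (slUp 1) * ψ (slLo (-1)) := by
    rw [← map_mul, ← map_mul, ← map_mul, ← map_mul]
    congr 1
    ext i j
    fin_cases i <;> fin_cases j <;> simp [Matrix.mul_apply, Fin.sum_univ_two]
  have hne : ψ (slUp 1) ≠ ψ (slLo (-1)) := fun h => by
    simpa using congrArg (fun A : SL(2, ZMod p) => A 0 1) (hψ h)
  have huT : ψ (slUp 1) ∈ T := h6 _ (mem_zpowers _)
  obtain ⟨k, hk⟩ := h4 ⟨_, mul_mem (h3 (mem_zpowers _)) huT⟩
  have t1 := trace_eq_two_of_pow_eq_one (A := slUp c * ψ (slUp 1)) (congrArg Subtype.val hk)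
  have t2 := trace_eq_two_of_pow_eq_one (k := 1) (by rwa [pow_one] : ψ (slUp 1) ^ p ^ 1 = 1)
  have t3 := (ψ (slUp 1)).det_coe
  have hA : ρ a - 1 = Φ ((slUp c : SL(2, K)) - 1) := by rw [map_sub, h1, map_one, add_sub_cancel_left]
  have hX' : ρ x - 1 = Φ (ψ (slUp 1) - 1) := by rw [map_sub, hx, map_one]
  refine ⟨x, y, ?_, ?_, ?_, ?_⟩
  · simpa [hx] using congrArg Φ (qd_sq_sub_one hu)
  · simpa [hy] using congrArg Φ (qd_sq_sub_one hw)
  · simpa [hx, hy] using congrArg Φ (qd_anticomm hu hw hbr hne)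
  rw [hA, hX', ← map_mul, ← map_mul]
  generalize ψ (slUp 1) = u at t1 t2 t3
  rw [Matrix.det_fin_two] at t3
  simp [Matrix.mul_apply, Fin.sum_univ_two] at t1
  have t4 : u 1 0 = 0 := (mul_eq_zero.1 (show c * u 1 0 = 0 by linear_combination t1 - t2)).resolve_left hc
  have t5 : u 0 0 = 1 := by
    have : (u 0 0 - 1) ^ 2 = 0 := by linear_combination (u 0 0) * t2 - t3 - (u 0 1) * t4
    exact sub_eq_zero.1 (pow_eq_zero_iff two_ne_zero |>.1 this)
  have t6 : u 1 1 = 1 := by linear_combination t2 - t5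
  constructor
  all_goals
    rw [← map_zero Φ]
    congr 1
    ext i j
    fin_cases i <;> fin_cases j <;> simp [Matrix.mul_apply, Fin.sum_univ_two, t4, t5, t6]

theorem exists_torus_elt (ι : ZMod p →+* R) (hι : ∀ k r, ι k * r = r * ι k) (ρ : H →* R) {x y : H}
    (hx : (ρ x - 1) * (ρ x - 1) = 0) (hy : (ρ y - 1) * (ρ y - 1) = 0)
    (hZ : (ρ x - 1) * (ρ y - 1) + (ρ y - 1) * (ρ x - 1) = -1) {n m : ℕ}
    (hnm : (n : ZMod p) * m = 1) :
    ∃ t : H, ρ t * (ρ x - 1) = n * (ρ x - 1) ∧ ρ t * (ρ y - 1) = m * (ρ y - 1) := by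
  obtain ⟨Φ, h1, h2⟩ := exists_ringHom_of_quadratic ι (fun k => hι k _) (fun k => hι k _) hx hy
    (c := -1) (by simp) (by rw [hZ, map_neg, map_one])
  have h3 : fpSub ρ Φ = ⊤ := by
    rw [eq_top_iff, ← closure_slUp_slLo_zmod (s := -1) (t := 1) (by simp) one_ne_zero, closure_le]
    rintro _ (rfl | rfl)
    exacts [⟨x, by rw [h1, add_sub_cancel]⟩, ⟨y, by rw [h2, add_sub_cancel]⟩]
  obtain ⟨t, ht⟩ : (⟨!![(n : ZMod p), 0; 0, m], by simp [Matrix.det_fin_two, hnm]⟩ :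
    SL(2, ZMod p)) ∈ fpSub ρ Φ := h3 ▸ mem_top _
  have e1 : ρ x - 1 = Φ ((slUp (-1) : SL(2, ZMod p)) - 1) := by
    rw [map_sub, h1, map_one, add_sub_cancel_left]
  have e2 : ρ y - 1 = Φ ((slLo 1 : SL(2, ZMod p)) - 1) := by
    rw [map_sub, h2, map_one, add_sub_cancel_left]
  refine ⟨t, ?_, ?_⟩
  · rw [e1, ht, ← map_natCast Φ, ← map_mul, ← map_mul]
    congr 1
    ext i j
    fin_cases i <;> fin_cases j <;> simp [Matrix.mul_apply, Fin.sum_univ_two, Matrix.natCast_apply]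
  · rw [e2, ht, ← map_natCast Φ, ← map_mul, ← map_mul]
    congr 1
    ext i j
    fin_cases i <;> fin_cases j <;> simp [Matrix.mul_apply, Fin.sum_univ_two, Matrix.natCast_apply]

end Ring

section Rep

variable {p : ℕ} [hp : Fact p.Prime] {H : Type*} [Group H] {W : Type*} [AddCommGroup W]
  [Module (ZMod p) W]

theorem exists_aligned_pair_of_irreducible [Finite W] [Nontrivial W] (hp2 : p ≠ 2)
    (ρ : Representation (ZMod p) H W) {a b : H} (hgen : closure {a, b} = ⊤)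
    (ha : (ρ a - 1) * (ρ a - 1) = 0) (hb : (ρ b - 1) * (ρ b - 1) = 0)
    (hirr : ∀ U : Submodule (ZMod p) W, (∀ g, U ≤ U.comap (ρ g)) → U = ⊥ ∨ U = ⊤)
    (hnt : ¬ ∀ g, ρ g = 1) :
    ∃ x y : H, (ρ x - 1) * (ρ x - 1) = 0 ∧ (ρ y - 1) * (ρ y - 1) = 0 ∧
      (ρ x - 1) * (ρ y - 1) + (ρ y - 1) * (ρ x - 1) = -1 ∧
      (ρ x - 1) * (ρ a - 1) = 0 ∧ (ρ a - 1) * (ρ x - 1) = 0 := by
  let K : Subring (Module.End (ZMod p) W) := Subring.centralizer (Set.range ρ)
  have hK : ∀ k : K, ∀ g, ρ g * k = k * ρ g := fun k g => k.2 _ ⟨g, rfl⟩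
  have hfin : Finite (Module.End (ZMod p) W) := Finite.of_injective _ DFunLike.coe_injective
  have hinj : ∀ k : K, k ≠ 0 → ∀ w, (k : Module.End (ZMod p) W) w = 0 → w = 0 := by
    intro k hk w hw
    rcases hirr (LinearMap.ker (k : Module.End (ZMod p) W)) (fun g v hv => by
      rw [Submodule.mem_comap, LinearMap.mem_ker, ← Module.End.mul_apply, ← hK,
        Module.End.mul_apply, LinearMap.mem_ker.1 hv, map_zero]) with h | h
    · exact (Submodule.mem_bot _).1 (h ▸ LinearMap.mem_ker.2 hw)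
    · exact absurd (Subtype.ext (LinearMap.ker_eq_top.1 h)) hk
  have hnz : NoZeroDivisors K := ⟨fun {k l} h => by
    by_contra hc
    rw [not_or] at hc
    refine hc.2 (Subtype.ext (LinearMap.ext fun w => hinj k hc.1 _ ?_))
    exact LinearMap.congr_fun (congrArg Subtype.val h) w⟩
  have hdom : IsDomain K := NoZeroDivisors.to_isDomain K
  have hZ : (ρ a - 1) * (ρ b - 1) + (ρ b - 1) * (ρ a - 1) ∈ K := by
    rintro _ ⟨g, rfl⟩
    have hg : g ∈ closure {a, b} := hgen ▸ mem_top g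
    have h1 : Commute (ρ a) ((ρ a - 1) * (ρ b - 1) + (ρ b - 1) * (ρ a - 1)) := by
      have e : ρ a = 1 + (ρ a - 1) := by abel
      generalize ρ a - 1 = X at *
      rw [e]
      refine (Commute.one_left _).add_left ?_
      rw [Commute, SemiconjBy, mul_add, add_mul, ← mul_assoc, ha, mul_assoc _ X X, ha]
      simp [mul_assoc]
    have h2 : Commute (ρ b) ((ρ a - 1) * (ρ b - 1) + (ρ b - 1) * (ρ a - 1)) := by
      have e : ρ b = 1 + (ρ b - 1) := by abel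
      generalize ρ b - 1 = Y at *
      rw [e]
      refine (Commute.one_left _).add_left ?_
      rw [Commute, SemiconjBy, mul_add, add_mul, ← mul_assoc Y Y, hb, mul_assoc _ Y Y, hb]
      simp [mul_assoc]
    induction hg using closure_induction with
    | one => simp
    | mem x hx => rcases hx with rfl | rfl; exacts [h1, h2]
    | mul x y _ _ hx hy => rw [map_mul]; exact Commute.mul_left hx hy
    | inv x _ hx =>
      have e1 : ρ x⁻¹ * ρ x = 1 := by rw [← map_mul, inv_mul_cancel, map_one]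
      have e2 : ρ x * ρ x⁻¹ = 1 := by rw [← map_mul, mul_inv_cancel, map_one]
      calc _ = ρ x⁻¹ * (_ * ρ x) * ρ x⁻¹ := by rw [mul_assoc, mul_assoc, e2, mul_one]
        _ = _ := by rw [← hx, ← mul_assoc, e1, one_mul]
  have hZ0 : (⟨_, hZ⟩ : K) ≠ 0 := by
    intro h0
    have h0' : (ρ a - 1) * (ρ b - 1) + (ρ b - 1) * (ρ a - 1) = 0 := congrArg Subtype.val h0
    let U : Submodule (ZMod p) W := LinearMap.ker (ρ a - 1) ⊓ LinearMap.ker (ρ b - 1)
    have hU : ∀ w, w ∈ U ↔ (ρ a - 1) w = 0 ∧ (ρ b - 1) w = 0 := fun w => Iff.rfl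
    have hU' : ∀ w, w ∈ U ↔ ρ a w = w ∧ ρ b w = w := by
      intro w; simp [hU, sub_eq_zero]
    have hinv := invariant_of_quadratic_pair ρ hgen ha hb U
      (fun w hw => by rw [((hU' w).1 hw).1]; exact hw)
      (fun w hw => by rw [((hU' w).1 hw).2]; exact hw)
    rcases hirr U hinv with h | h
    · have hz : ∀ w, (ρ a - 1) w = 0 → (ρ b - 1) w = 0 → w = 0 := fun w h1 h2 =>
        (Submodule.mem_bot _).1 (h ▸ (hU w).2 ⟨h1, h2⟩)
      have haa : ∀ w, (ρ a - 1) ((ρ a - 1) w) = 0 := fun w => LinearMap.congr_fun ha w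
      have hbb : ∀ w, (ρ b - 1) ((ρ b - 1) w) = 0 := fun w => LinearMap.congr_fun hb w
      have hab : ∀ w, (ρ a - 1) ((ρ b - 1) w) + (ρ b - 1) ((ρ a - 1) w) = 0 := fun w =>
        LinearMap.congr_fun h0' w
      obtain ⟨w, hw⟩ := exists_ne (0 : W)
      have h1 : (ρ b - 1) ((ρ a - 1) w) = 0 := hz _ (by
        have := hab ((ρ a - 1) w)
        rwa [haa, map_zero, add_zero] at this) (hbb _)
      have h2 : (ρ a - 1) w = 0 := hz _ (haa _) h1
      have h3 : (ρ b - 1) w = 0 := hz _ (by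
        have := hab w
        rwa [h1, add_zero] at this) (hbb _)
      exact hw (hz w h2 h3)
    · apply hnt
      have h1 : ρ a = 1 := by ext w; exact ((hU' w).1 (h ▸ Submodule.mem_top)).1
      have h2 : ρ b = 1 := by ext w; exact ((hU' w).1 (h ▸ Submodule.mem_top)).2
      intro g
      have hg : g ∈ closure {a, b} := hgen ▸ mem_top g
      have : closure {a, b} ≤ MonoidHom.ker ρ := by
        rw [closure_le]
        rintro x (rfl | rfl)
        exacts [h1, h2]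
      exact this hg
  have hchar : CharP K p := by
    rw [CharP.charP_iff_prime_eq_zero hp.out]
    apply Subtype.ext
    ext w
    simp [← Nat.cast_smul_eq_nsmul (ZMod p)]
  let _ : Field K := (Finite.isDomain_to_isField K).toField
  refine exists_quadratic_pair_aligned (K := K) (p := p) hp2 K.subtype ρ (fun k => ?_)
    (fun k => ?_) ha hb hZ0 rfl
  · exact (((Commute.symm (hK k a)).sub_right (Commute.one_right _))).eq
  · exact (((Commute.symm (hK k b)).sub_right (Commute.one_right _))).eq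

end Rep

section Data

variable {G : Type*} [Group G] {G' : Type*} [Group G'] {p n m : ℕ}

/-- Modulo `U`, `x` and `t` act on `⟨e₀, e₁⟩` as a transvection and as `diag(n, m)`. -/
structure FDat (p n m : ℕ) (U : Subgroup G) (x t e₀ e₁ : G) : Prop where
  xU : x ∈ normalizer (U : Set G)
  tU : t ∈ normalizer (U : Set G)
  e0U : e₀ ∈ normalizer (U : Set G)
  e1U : e₁ ∈ normalizer (U : Set G)
  ne : e₀ ∉ U
  p0 : e₀ ^ p ∈ U
  p1 : e₁ ^ p ∈ U
  c01 : ⁅e₀, e₁⁆ ∈ U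
  x0 : ⁅x, e₀⁆ ∈ U
  x1 : ⁅x, e₁⁆ * e₀ ∈ U
  t0 : t * e₀ * t⁻¹ * (e₀ ^ n)⁻¹ ∈ U
  t1 : t * e₁ * t⁻¹ * (e₁ ^ m)⁻¹ ∈ U

/-- A section of `V` on which `M` induces a Borel subgroup of `SL(2, p)`, with the fixed line
covered by `V₀`. -/
def HasF (p n m : ℕ) (M V V₀ : Subgroup G) : Prop :=
  ∃ (U : Subgroup G), ∃ x ∈ M, ∃ t ∈ M, ∃ e₀ ∈ V₀, ∃ e₁ ∈ V, FDat p n m U x t e₀ e₁

variable {M V V₀ M' V' V₀' : Subgroup G}

theorem HasF.mono (h : HasF p n m M V V₀) (h1 : M ≤ M') (h2 : V ≤ V') (h3 : V₀ ≤ V₀') :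
    HasF p n m M' V' V₀' :=
  let ⟨U, x, hx, t, ht, e₀, h0, e₁, h4, h5⟩ := h
  ⟨U, x, h1 hx, t, h1 ht, e₀, h3 h0, e₁, h2 h4, h5⟩

theorem HasF.of_map (f : G →* G') (h : HasF p n m (M.map f) (V.map f) (V₀.map f)) :
    HasF p n m M V V₀ := by
  obtain ⟨U, _, ⟨x, hx, rfl⟩, _, ⟨t, ht, rfl⟩, _, ⟨e₀, h0, rfl⟩, _, ⟨e₁, h1, rfl⟩, h⟩ := h
  exact ⟨U.comap f, x, hx, t, ht, e₀, h0, e₁, h1, le_normalizer_comap f h.xU,
    le_normalizer_comap f h.tU, le_normalizer_comap f h.e0U, le_normalizer_comap f h.e1U, h.ne,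
    by simpa using h.p0, by simpa using h.p1, by simpa [map_commutatorElement] using h.c01,
    by simpa [map_commutatorElement] using h.x0, by simpa [map_commutatorElement] using h.x1,
    by simpa using h.t0, by simpa using h.t1⟩

theorem HasF.map {f : G →* G'} (hf : Function.Injective f) (h : HasF p n m M V V₀) :
    HasF p n m (M.map f) (V.map f) (V₀.map f) := by
  obtain ⟨U, x, hx, t, ht, e₀, h0, e₁, h1, h⟩ := h
  have k := fun g (hg : g ∈ normalizer (U : Set G)) => le_normalizer_map f (mem_map_of_mem f hg)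
  exact ⟨U.map f, _, mem_map_of_mem f hx, _, mem_map_of_mem f ht, _, mem_map_of_mem f h0, _,
    mem_map_of_mem f h1, k _ h.xU, k _ h.tU, k _ h.e0U, k _ h.e1U,
    fun h2 => h.ne ((mem_map_iff_mem hf).1 h2),
    by simpa using mem_map_of_mem f h.p0, by simpa using mem_map_of_mem f h.p1,
    by simpa [map_commutatorElement] using mem_map_of_mem f h.c01,
    by simpa [map_commutatorElement] using mem_map_of_mem f h.x0,
    by simpa [map_commutatorElement] using mem_map_of_mem f h.x1,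
    by simpa using mem_map_of_mem f h.t0, by simpa using mem_map_of_mem f h.t1⟩

theorem HasF.realize [Finite G] (h : HasF p n m M V V₀) (h0 : V₀ ≤ V)
    (hM : M ≤ normalizer (V : Set G)) (hr : ∀ g ∈ M, ThReal M' V g) : HasF p n m M' V V₀ := by
  obtain ⟨U, x, hx, t, ht, e₀, he₀, e₁, he₁, h⟩ := h
  obtain ⟨x', hx', h1⟩ := hr x hx
  obtain ⟨t', ht', h2⟩ := hr t ht
  have hV := h0 he₀
  have k : ∀ g ∈ normalizer (U : Set G), g ∈ normalizer (V : Set G) →
      g ∈ normalizer ((U ⊓ V : Subgroup G) : Set G) := fun g h3 h4 =>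
    inf_normalizer_le_normalizer_inf ⟨h3, h4⟩
  have k' : ∀ g g' : G, g ∈ normalizer ((U ⊓ V : Subgroup G) : Set G) →
      (∀ a ∈ V, g * a * g⁻¹ = g' * a * g'⁻¹) → g' ∈ normalizer ((U ⊓ V : Subgroup G) : Set G) :=
    fun g g' h3 h4 => Tr.mem_normalizer_of_conj_mem fun a ha =>
      h4 a ha.2 ▸ Tr.conj_mem_of_mem_normalizer h3 ha
  have c : ∀ g ∈ M, ∀ v ∈ V, g * v * g⁻¹ ∈ V := fun g hg v hv =>
    Tr.conj_mem_of_mem_normalizer (hM hg) hv
  refine ⟨U ⊓ V, x', hx', t', ht', e₀, he₀, e₁, he₁, k' x x' (k x h.xU (hM hx)) h1,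
    k' t t' (k t h.tU (hM ht)) h2, k _ h.e0U (le_normalizer hV), k _ h.e1U (le_normalizer he₁),
    fun h3 => h.ne h3.1, ⟨h.p0, V.pow_mem hV p⟩, ⟨h.p1, V.pow_mem he₁ p⟩, ⟨h.c01,
      V.mul_mem (V.mul_mem (V.mul_mem hV he₁) (V.inv_mem hV)) (V.inv_mem he₁)⟩, ?_, ?_, ?_, ?_⟩
  · rw [commutatorElement_def, ← h1 _ hV]
    exact ⟨h.x0, V.mul_mem (c x hx _ hV) (V.inv_mem hV)⟩
  · rw [commutatorElement_def, ← h1 _ he₁]
    exact ⟨h.x1, V.mul_mem (V.mul_mem (c x hx _ he₁) (V.inv_mem he₁)) hV⟩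
  · rw [← h2 _ hV]
    exact ⟨h.t0, V.mul_mem (c t ht _ hV) (V.inv_mem (V.pow_mem hV n))⟩
  · rw [← h2 _ he₁]
    exact ⟨h.t1, V.mul_mem (c t ht _ he₁) (V.inv_mem (V.pow_mem he₁ m))⟩

end Data

section Core

variable {p : ℕ} [hp : Fact p.Prime] {G : Type*} [Group G] [Finite G]

omit hp [Finite G] in
theorem fp_comm_congr {U : Subgroup G} {c s u : G} [U.Normal] (hc : c ∈ centralizer (U : Set G))
    (hu : u ∈ U) : c * s * u * (c * s)⁻¹ = s * u * s⁻¹ := by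
  have h := hc _ (Normal.conj_mem inferInstance u hu s)
  calc c * s * u * (c * s)⁻¹ = c * (s * u * s⁻¹) * c⁻¹ := by group
    _ = _ := by rw [← h, mul_inv_cancel_right]

/-- A `p'`-element acting trivially on `F` and on `U / F` acts trivially on `U`. -/
theorem fp_coprime {U F : Subgroup G} (hF : IsPGroup p F) {k : G} (hk : (orderOf k).Coprime p)
    (h1 : k ∈ centralizer (F : Set G)) (h2 : k ∈ normalizer (F : Set G))
    (h3 : ∀ u ∈ U, ⁅u, k⁆ ∈ F) : k ∈ centralizer (U : Set G) := by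
  refine zpowers_le.1 (CopAct.le_centralizer_of_commutator_le
    (CopAct.coprime_of_isPGroup_right (by rwa [Nat.card_zpowers]) hF) ?_ (zpowers_le.2 h1))
  rw [commutator_le]
  rintro u hu _ ⟨j, rfl⟩
  have h4 : zpowers k ≤ Loc.CF.cmod U F := zpowers_le.2 (Loc.CF.mem_cmod.2 ⟨h2, fun u hu => by
    rw [← commutatorElement_inv]; exact inv_mem (h3 u hu)⟩)
  rw [← commutatorElement_inv]
  exact inv_mem ((Loc.CF.mem_cmod.1 (h4 ⟨j, rfl⟩)).2 u hu)

theorem fp_core (hp2 : p ≠ 2) {U W M : Subgroup G} (hU : IsMinNormal U) (hUp : IsPGroup p U)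
    [W.Normal] {a b : G} (hgen : W ⊔ closure {a, b} = ⊤)
    (ha : ∀ u ∈ U, ⁅a, ⁅a, u⁆⁆ = 1) (hb : ∀ u ∈ U, ⁅b, ⁅b, u⁆⁆ = 1)
    (hne : centralizer (U : Set G) ≠ ⊤) (hY : IsPGroup p ↥(W ⊔ zpowers a))
    (hM : ∀ P : Subgroup G, IsPGroup p P → W ⊔ zpowers a ≤ P → normalizer (P : Set G) ≤ M)
    {n m : ℕ} (hnm : (n : ZMod p) * m = 1) :
    ∃ x ∈ M, ∃ t ∈ M, ∃ y : G, ∀ u ∈ U, ⁅x, ⁅x, u⁆⁆ = 1 ∧ ⁅x, ⁅y, u⁆⁆ * ⁅y, ⁅x, u⁆⁆ = u⁻¹ ∧
      t * ⁅x, u⁆ * t⁻¹ = ⁅x, u⁆ ^ n ∧ t * ⁅y, u⁆ * t⁻¹ = ⁅y, u⁆ ^ m := by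
  have hn := hU.normal
  have hV := hU.elementary_of_isPGroup hp.out hUp
  have hH : closure {a, b} ≤ normalizer (U : Set G) := th_le_norm
  have hnil := (hY.to_le le_sup_left).isNilpotent
  have hWC : W ≤ centralizer (U : Set G) := hU.le_centralizer_of_isNilpotent W
  have hnt : Nontrivial (EAV hV) := by
    rw [← Finite.one_lt_card_iff_nontrivial, EAV.card_eq]
    exact (one_lt_card_iff_ne_bot U).2 hU.ne_bot
  have hirr : ∀ X : Submodule (ZMod p) (EAV hV), (∀ g, X ≤ X.comap (eaRep hV hH g)) →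
      X = ⊥ ∨ X = ⊤ := by
    intro X hX
    have h1 : (EAV.grp X).Normal := normal_of_top_le_normalizer (by
      rw [← hgen]
      exact sup_le (hWC.trans
        (CopAct.le_normalizer_of_le_centralizer (centralizer_le (EAV.grp_le X))))
        (le_normalizer_grp hX))
    rcases hU.eq_bot_or_eq (EAV.grp_le X) with h | h
    · exact Or.inl (EAV.grp_injective (h.trans EAV.grp_bot.symm))
    · exact Or.inr (EAV.grp_injective (h.trans EAV.grp_top.symm))
  have tr : ∀ g h : closure {a, b}, (eaRep hV hH g - 1) * (eaRep hV hH h - 1) = 0 ↔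
      ∀ u ∈ U, ⁅(g : G), ⁅(h : G), u⁆⁆ = 1 := fun g h => by
    refine ⟨fun h1 u hu => ?_, fun h1 => LinearMap.ext fun w => EAV.ext ?_⟩
    · have := congrArg EAV.val (LinearMap.congr_fun h1 (EAV.mk hV u hu))
      rwa [Module.End.mul_apply, val_eaRep_sub_one, val_eaRep_sub_one] at this
    · rw [Module.End.mul_apply, val_eaRep_sub_one, val_eaRep_sub_one]
      exact h1 _ w.val_mem
  obtain ⟨x, y, hx, hy, hxy, hxa, hax⟩ := exists_aligned_pair_of_irreducible hp2 (eaRep hV hH)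
    (closure_pair_subtype_eq_top a b) ((tr _ _).2 ha) ((tr _ _).2 hb) hirr
    (fun h => hne (eq_top_iff.2 (hgen ▸ sup_le hWC fun g hg => eaRep_eq_one_iff.1 (h ⟨g, hg⟩))))
  obtain ⟨t, ht1, ht2⟩ := exists_torus_elt (algebraMap (ZMod p) (Module.End (ZMod p) (EAV hV)))
    (fun k r => Algebra.commutes k r) (eaRep hV hH) hx hy hxy hnm
  have e1 : ∀ u ∈ U, ⁅(x : G), ⁅(y : G), u⁆⁆ * ⁅(y : G), ⁅(x : G), u⁆⁆ = u⁻¹ := fun u hu => by
    have := congrArg EAV.val (LinearMap.congr_fun hxy (EAV.mk hV u hu))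
    rwa [LinearMap.add_apply, EAV.val_add, Module.End.mul_apply, Module.End.mul_apply,
      val_eaRep_sub_one, val_eaRep_sub_one, val_eaRep_sub_one, val_eaRep_sub_one] at this
  have e2 : ∀ (z : closure {a, b}) (k : ℕ), eaRep hV hH t * (eaRep hV hH z - 1) =
      k * (eaRep hV hH z - 1) → ∀ u ∈ U, t * ⁅(z : G), u⁆ * (t : G)⁻¹ = ⁅(z : G), u⁆ ^ k := by
    intro z k h u hu
    have := congrArg EAV.val (LinearMap.congr_fun h (EAV.mk hV u hu))
    rwa [Module.End.mul_apply, Module.End.mul_apply, Module.End.natCast_apply, EAV.val_nsmul,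
      val_eaRep, val_eaRep_sub_one] at this
  rw [tr] at hx hxa hax
  have hc : ∀ g, ∀ u ∈ U, ⁅g, u⁆ ∈ U := fun g u hu =>
    commutator_le_right ⊤ U (commutator_mem_commutator (mem_top g) hu)
  set F := U ⊓ centralizer {(x : G)} with hF
  have mF : ∀ {v}, v ∈ F ↔ v ∈ U ∧ ⁅(x : G), v⁆ = 1 := fun {v} => by
    rw [hF, mem_inf, mem_centralizer_singleton_iff, commutatorElement_eq_one_iff_mul_comm,
      eq_comm]
  have rF : ∀ v ∈ F, ∃ u ∈ U, v = ⁅(x : G), u⁆ := fun v hv => by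
    have h1 := e1 _ (inv_mem hv.1)
    rw [(mF.1 (inv_mem hv)).2, commutatorElement_one_right, mul_one, inv_inv] at h1
    exact ⟨_, hc _ _ (inv_mem hv.1), h1.symm⟩
  set D := centralizer (F : Set G) ⊓ Loc.CF.cmod U F with hD
  have mD : ∀ g, (∀ u ∈ U, ⁅g, ⁅(x : G), u⁆⁆ = 1) → (∀ u ∈ U, ⁅(x : G), ⁅g, u⁆⁆ = 1) → g ∈ D := by
    intro g h1 h2
    have h3 : g ∈ centralizer (F : Set G) := fun v hv => by
      obtain ⟨u, hu, rfl⟩ := rF v hv
      exact (commutatorElement_eq_one_iff_mul_comm.1 (h1 u hu)).symm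
    exact ⟨h3, Loc.CF.mem_cmod.2 ⟨centralizer_le_normalizer _ h3,
      fun u hu => mF.2 ⟨hc g u hu, h2 u hu⟩⟩⟩
  have hYD : W ⊔ zpowers a ≤ D := sup_le (fun w hw => by
    have h1 : ∀ u ∈ U, ⁅w, u⁆ = 1 := fun u hu =>
      commutatorElement_eq_one_iff_mul_comm.2 (hWC hw u hu).symm
    exact mD w (fun u hu => h1 _ (hc _ u hu)) fun u hu => by simp [h1 u hu])
    (zpowers_le.2 (mD a hax hxa))
  obtain ⟨P, h1, h2, h3, h4⟩ := Tr.exists_sylowIn_ge hY hYD
  have key : ∀ g ∈ normalizer (D : Set G), ∃ s ∈ M, ∀ u ∈ U, g * u * g⁻¹ = s * u * s⁻¹ := by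
    intro g hg
    obtain ⟨d, hd, k, hk, rfl⟩ := Tr.frattini_sylowIn h3 h2 h4 hg
    obtain ⟨c, hc', s, hs, rfl⟩ := th_exists_centralizer_mul (B := U) h2 h4 (fun k hk hko =>
      fp_coprime (hUp.to_le inf_le_left) hko hk.1 (Loc.CF.mem_cmod.1 hk.2).1 fun u hu => by
        rw [← commutatorElement_inv]
        exact inv_mem ((Loc.CF.mem_cmod.1 hk.2).2 u hu)) hd
    exact ⟨s * k, hM P h3 h1 (mul_mem (le_normalizer hs) hk), fun u hu => by
      rw [mul_assoc c]; exact fp_comm_congr hc'.2 hu⟩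
  have htF : (t : G) ∈ normalizer (F : Set G) := Tr.mem_normalizer_of_conj_mem fun v hv => by
    obtain ⟨u, hu, rfl⟩ := rF v hv
    rw [e2 x n ht1 u hu]
    exact pow_mem hv n
  obtain ⟨x', hx', h5⟩ := key x (le_normalizer (mD x hx hx))
  obtain ⟨t', ht', h6⟩ := key t (CopAct.le_normalizer_inf
    (CopAct.le_normalizer_centralizer (zpowers_le.2 htF))
    (Loc.CF.le_normalizer_cmod th_le_norm (zpowers_le.2 htF)) (mem_zpowers _))
  have h7 : ∀ u ∈ U, ⁅x', u⁆ = ⁅(x : G), u⁆ := fun u hu => by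
    rw [commutatorElement_def, commutatorElement_def, h5 u hu]
  refine ⟨x', hx', t', ht', y, fun u hu => ?_⟩
  rw [h7 u hu, h7 _ (hc _ u hu), h7 _ (hc _ u hu), ← h6 _ (hc _ u hu), ← h6 _ (hc _ u hu)]
  exact ⟨hx u hu, e1 u hu, e2 x n ht1 u hu, e2 y m ht2 u hu⟩

omit hp [Finite G] in
theorem fp_le_centralizer_normalClosure {D V₀ : Subgroup G} [D.Normal]
    (h : D ≤ centralizer (V₀ : Set G)) : D ≤ centralizer (normalClosure (V₀ : Set G) : Set G) :=
  le_centralizer_iff.1 (normalClosure_le_normal (le_centralizer_iff.1 h))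

/-- The section is a minimal normal subgroup. -/
theorem hasF_of_isMinNormal (hp2 : p ≠ 2) {U W M V₀ : Subgroup G} (hU : IsMinNormal U)
    (hUp : IsPGroup p U) [W.Normal] {a b : G} (hgen : W ⊔ closure {a, b} = ⊤)
    (ha : ∀ u ∈ U, ⁅a, ⁅a, u⁆⁆ = 1) (hb : ∀ u ∈ U, ⁅b, ⁅b, u⁆⁆ = 1)
    (hne : centralizer (U : Set G) ≠ ⊤) (hY : IsPGroup p ↥(W ⊔ zpowers a))
    (hM : ∀ P : Subgroup G, IsPGroup p P → W ⊔ zpowers a ≤ P → normalizer (P : Set G) ≤ M)
    (hMV : M ≤ normalizer (V₀ : Set G)) (hUV : U ≤ normalClosure (V₀ : Set G))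
    (hVU : ⁅pResidual p G, normalClosure (V₀ : Set G)⁆ ≤ U)
    {n m : ℕ} (hnm : (n : ZMod p) * m = 1) : HasF p n m M U V₀ := by
  have hn := hU.normal
  have hV := hU.elementary_of_isPGroup hp.out hUp
  have hc : ∀ g, ∀ u ∈ U, ⁅g, u⁆ ∈ U := fun g u hu =>
    commutator_le_right ⊤ U (commutator_mem_commutator (mem_top g) hu)
  have hvis : V₀ ⊓ U ≠ ⊥ := by
    intro h0
    set V := normalClosure (V₀ : Set G) with hVdef
    set K := Loc.CF.cmod V U with hK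
    have hKn : K.Normal := Loc.CF.cmod_normal V U
    have h1 : ∀ k ∈ K, k ∈ M → k ∈ centralizer (V₀ : Set G) := fun k hk hkM v hv =>
      (commutatorElement_eq_one_iff_mul_comm.1 (mem_bot.1 (h0 ▸ mem_inf.2
        ⟨mul_mem (Tr.conj_mem_of_mem_normalizer (hMV hkM) hv) (inv_mem hv),
          (Loc.CF.mem_cmod.1 hk).2 v (subset_normalClosure hv)⟩))).symm
    obtain ⟨P, hP⟩ := hY.exists_le_sylow
    have h2 : K ⊓ centralizer (U : Set G) ≤ centralizer (V₀ : Set G) := fun e he => by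
      obtain ⟨c, h3, s, h4, rfl⟩ := th_exists_centralizer_mul (B := V) inf_le_right
        (Tr.not_dvd_relIndex_sylow_inf_normal P (K ⊓ centralizer (U : Set G)))
        (fun k hk hko => fp_coprime hUp hko hk.2 (th_le_norm (mem_top k)) fun v hv => by
          rw [← commutatorElement_inv]
          exact inv_mem ((Loc.CF.mem_cmod.1 hk.1).2 v hv)) he
      exact mul_mem (centralizer_le subset_normalClosure h3.2)
        (h1 s h4.2.1 (hM P P.isPGroup' hP (le_normalizer h4.1)))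
    have hq : ((p - 1 : ℕ) : ZMod p) = -1 := by
      rw [Nat.cast_sub hp.out.one_le]; simp
    obtain ⟨x, -, i, hi, y, h3⟩ := fp_core hp2 hU hUp hgen ha hb hne hY hM (n := p - 1)
      (m := p - 1) (by rw [hq]; simp)
    have h4 : ∀ u ∈ U, u ^ (p - 1) = u⁻¹ := fun u hu => by
      rw [eq_inv_iff_mul_eq_one, ← pow_succ, Nat.sub_add_cancel hp.out.one_le, hV.2 u hu]
    have h5 : ∀ u ∈ U, i * u * i⁻¹ = u⁻¹ := fun u hu => by
      have e := (h3 _ (inv_mem hu)).2.1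
      have e1 := (h3 _ (hc y _ (inv_mem hu))).2.2.1
      have e2 := (h3 _ (hc x _ (inv_mem hu))).2.2.2
      rw [h4 _ (hc _ _ (hc _ _ (inv_mem hu)))] at e1 e2
      rw [inv_inv] at e
      rw [← e, th_comm_iff.1 hV.1 _ (hc _ _ (hc _ _ (inv_mem hu))) _ (hc _ _ (hc _ _ (inv_mem hu))),
        _root_.mul_inv_rev, ← e1, ← e2, th_comm_iff.1 hV.1 _ (hc _ _ (hc _ _ (inv_mem hu))) _
          (hc _ _ (hc _ _ (inv_mem hu)))]
      group
    obtain ⟨k, hk⟩ := exists_pow_coprime_orderOf (p := p) i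
    have h6 : ∀ u ∈ U, i ^ p ^ k * u * (i ^ p ^ k)⁻¹ = u⁻¹ := fun u hu => by
      obtain ⟨j, hj⟩ := (hp.out.odd_of_ne_two hp2).pow (n := k)
      have h7 : i ^ 2 ∈ centralizer (U : Set G) := fun v hv => by
        have := h5 _ (U.inv_mem hv)
        rw [inv_inv, ← h5 v hv] at this
        calc v * i ^ 2 = i * (i * v * i⁻¹) * i⁻¹ * i ^ 2 := by rw [this]
          _ = _ := by rw [pow_two]; group
      rw [hj, pow_succ, pow_mul, fp_comm_congr (pow_mem h7 j) hu, h5 u hu]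
    set i' := i ^ p ^ k with hi'
    have h7 : i' ∈ K := Loc.CF.mem_cmod.2 ⟨th_le_norm (mem_top _), fun v hv =>
      hVU (commutator_mem_commutator (subset_closure hk) hv)⟩
    have h8 : i' ∈ (centralizer (V₀ : Set G)).normalCore := fun g => by
      have h9 : i'⁻¹ * (g * i' * g⁻¹) ∈ K ⊓ centralizer (U : Set G) :=
        ⟨K.mul_mem (K.inv_mem h7) (hKn.conj_mem _ h7 g), fun u hu => by
          have e1 := h6 _ (hn.conj_mem u hu g⁻¹)
          have e2 := h6 u hu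
          calc u * (i'⁻¹ * (g * i' * g⁻¹)) = i'⁻¹ * (i' * u * i'⁻¹) * (g * i' * g⁻¹) := by group
            _ = i'⁻¹ * g * (g⁻¹ * u * g⁻¹⁻¹)⁻¹ * i' * g⁻¹ := by rw [e2]; group
            _ = _ := by rw [← e1]; group⟩
      rw [← mul_inv_cancel_left i' (g * i' * g⁻¹)]
      exact mul_mem (h1 _ h7 (pow_mem hi _)) (h2 h9)
    have h9 := fp_le_centralizer_normalClosure (normalCore_le _) h8
    refine hU.ne_bot (eq_bot_iff.2 fun u hu => th_sq_eq_one_imp hp2 hUp u hu ?_)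
    have h10 := h6 u hu
    rw [← h9 u (hUV hu), mul_inv_cancel_right] at h10
    rw [pow_two, mul_eq_one_iff_eq_inv, ← h10]
  obtain ⟨x, hx, t, ht, y, h3⟩ := fp_core hp2 hU hUp hgen ha hb hne hY hM hnm
  obtain ⟨e₀, h4, h5, h6⟩ : ∃ e₀ ∈ V₀ ⊓ U, e₀ ≠ 1 ∧ ⁅x, e₀⁆ = 1 := by
    obtain ⟨⟨v, hv⟩, h4⟩ := ne_bot_iff_exists_ne_one.1 hvis
    by_cases h5 : ⁅x, v⁆ = 1
    · exact ⟨v, hv, fun h6 => h4 (Subtype.ext h6), h5⟩
    · exact ⟨_, ⟨V₀.mul_mem (Tr.conj_mem_of_mem_normalizer (hMV hx) hv.1) (V₀.inv_mem hv.1),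
        hc x v hv.2⟩, h5, (h3 v hv.2).1⟩
  have h7 := (h3 e₀ h4.2).2.1
  rw [h6, commutatorElement_one_right, mul_one] at h7
  have h8 := (h3 _ (hc y e₀ h4.2)).2.2.1
  rw [h7, inv_pow] at h8
  refine ⟨⊥, x, hx, t, ht, e₀, h4.1, ⁅y, e₀⁆, hc y e₀ h4.2, th_le_norm (mem_top _),
    th_le_norm (mem_top _), th_le_norm (mem_top _), th_le_norm (mem_top _), h5, hV.2 _ h4.2,
    hV.2 _ (hc y e₀ h4.2), commutatorElement_eq_one_iff_mul_comm.2
      (th_comm_iff.1 hV.1 _ h4.2 _ (hc y e₀ h4.2)), h6, by simp [h7], ?_,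
    by simp [(h3 e₀ h4.2).2.2.2]⟩
  rw [mem_bot, mul_inv_eq_one, ← _root_.inv_inj, ← h8]
  group

/-- The group is generated by a normal `p`-subgroup and two quadratic elements. -/
theorem hasF_of_pair (hp2 : p ≠ 2) {V W V₀ : Subgroup G} [V.Normal] [W.Normal] (hVW : V ≤ W)
    (h0 : V₀ ≤ V) {a b : G} (hgen : W ⊔ closure {a, b} = ⊤)
    (ha : ∀ u ∈ V, ⁅a, ⁅a, u⁆⁆ = 1) (hb : ∀ u ∈ V, ⁅b, ⁅b, u⁆⁆ = 1)
    (hne : normalizer (V₀ : Set G) ≠ ⊤) (hY : IsPGroup p ↥(W ⊔ zpowers a))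
    (hM : ∀ P : Subgroup G, IsPGroup p P → W ⊔ zpowers a ≤ P →
      normalizer (P : Set G) ≤ normalizer (V₀ : Set G))
    {n m : ℕ} (hnm : (n : ZMod p) * m = 1) : HasF p n m (normalizer (V₀ : Set G)) V V₀ := by
  set V' := normalClosure (V₀ : Set G) with hV'
  have hV'V : V' ≤ V := normalClosure_le_normal h0
  have hVp : IsPGroup p V := hY.to_le (hVW.trans le_sup_left)
  set V'' := ⁅pResidual p G, V'⁆ with hV''
  have h1 : V'' ≤ V' := commutator_le_right _ _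
  have h2 : ⊥ < V'' := bot_lt_iff_ne_bot.2 fun h2 => by
    obtain ⟨P, hP⟩ := hY.exists_le_sylow
    refine hne (eq_top_iff.2 ?_)
    rw [← Tr.pResidual_sup_sylow P]
    exact sup_le (((commutator_eq_bot_iff_le_centralizer.1 h2).trans
      (centralizer_le subset_normalClosure)).trans (centralizer_le_normalizer _))
      (le_normalizer.trans (hM P P.isPGroup' hP))
  obtain ⟨U₀, h3, -⟩ := exists_isChiefFactor_below h2
  have := h3.2.2.1
  set f := QuotientGroup.mk' U₀ with hf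
  have hfs : Function.Surjective f := QuotientGroup.mk'_surjective U₀
  have hq : ∀ c : G, (∀ u ∈ V, ⁅c, ⁅c, u⁆⁆ = 1) → ∀ u ∈ V''.map f, ⁅f c, ⁅f c, u⁆⁆ = 1 := by
    rintro c hc _ ⟨u, hu, rfl⟩
    rw [← map_commutatorElement, ← map_commutatorElement, hc u (hV'V (h1 hu)), map_one]
  have hcl : V'.map f = normalClosure (V₀.map f : Set (G ⧸ U₀)) := by
    rw [hV', map_normalClosure _ _ hfs, coe_map]
  have hWn : (W.map f).Normal := Normal.map ‹_› f hfs
  refine (HasF.of_map f (hasF_of_isMinNormal hp2 (W := W.map f) h3.isMinNormal_map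
    ((hVp.to_le (h1.trans hV'V)).map f) (a := f a) (b := f b) ?_ (hq a ha) (hq b hb) ?_ ?_ ?_
    (le_normalizer_map f) (hcl ▸ map_mono h1) ?_ hnm)).mono le_rfl (h1.trans hV'V) le_rfl
  · rw [← Set.image_pair, ← MonoidHom.map_closure, ← Subgroup.map_sup, hgen,
      map_top_of_surjective f hfs]
  · intro h4
    refine h3.1.not_ge ?_
    rw [hV'', commutator_le_iff_map_mk', commutator_eq_bot_iff_le_centralizer,
      map_pResidual_of_surjective hfs]
    refine Tr.pResidual_le_iff.2 fun k hk => fp_coprime (F := V''.map f)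
      ((hVp.to_le (h1.trans hV'V)).map f) hk (h4 ▸ mem_top k)
      (centralizer_le_normalizer _ (h4 ▸ mem_top k)) fun u hu => ?_
    rw [hV'', map_commutator, map_pResidual_of_surjective hfs, commutator_comm]
    exact commutator_mem_commutator hu (subset_closure hk)
  · rw [← MonoidHom.map_zpowers, ← Subgroup.map_sup]
    exact hY.map f
  · intro P h4 h5
    have h6 := hM (P.comap f) (h4.comap_of_ker_isPGroup f (by
      rw [hf, QuotientGroup.ker_mk']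
      exact hVp.to_le (h3.1.le.trans (h1.trans hV'V)))) (by
      rwa [← map_le_iff_le_comap, Subgroup.map_sup, MonoidHom.map_zpowers])
    intro g hg
    obtain ⟨g, rfl⟩ := hfs g
    exact mem_map_of_mem f (h6 (le_normalizer_comap f hg))
  · rw [← hcl, ← map_pResidual_of_surjective hfs, ← map_commutator]

end Core

end Cfsg.Agent.GT
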