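import Mathlib
import Cfsg.Agent.GT.ThompsonFp

/-!
# Sections `F(p)`: the local argument and its consequences
-/

set_option autoImplicit false

namespace Cfsg.Agent.GT

open Subgroup Matrix
open scoped MatrixGroups commutatorElement

section Local

variable {G : Type*} [Group G]

/-- The subgroup generated by the elements of `X` acting quadratically on `V`. -/
def qdSub (V X : Subgroup G) : Subgroup G := closure {q | q ∈ X ∧ ∀ v ∈ V, ⁅q, ⁅q, v⁆⁆ = 1}

variable {V X Y : Subgroup G}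

theorem qdSub_le : qdSub V X ≤ X := (closure_le _).2 fun _ h => h.1

theorem mem_qdSub {q : G} (h1 : q ∈ X) (h2 : ∀ v ∈ V, ⁅q, ⁅q, v⁆⁆ = 1) : q ∈ qdSub V X :=
  subset_closure ⟨h1, h2⟩

theorem qdSub_mono (h : X ≤ Y) : qdSub V X ≤ qdSub V Y :=
  closure_mono fun _ hq => ⟨h hq.1, hq.2⟩

theorem qdSub_idem : qdSub V (qdSub V X) = qdSub V X :=
  le_antisymm qdSub_le (closure_mono fun _ hq => ⟨subset_closure hq, hq.2⟩)

theorem fp_quad_conj [V.Normal] {q : G} (h : ∀ v ∈ V, ⁅q, ⁅q, v⁆⁆ = 1) (g : G) :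
    ∀ v ∈ V, ⁅g * q * g⁻¹, ⁅g * q * g⁻¹, v⁆⁆ = 1 := fun v hv => by
  have h1 := h _ (Normal.conj_mem inferInstance v hv g⁻¹)
  calc _ = g * ⁅q, ⁅q, g⁻¹ * v * g⁻¹⁻¹⁆⁆ * g⁻¹ := by simp only [commutatorElement_def]; group
    _ = 1 := by rw [h1]; group

theorem map_qdSub_le [V.Normal] (g : G) :
    (qdSub V X).map (MulAut.conj g).toMonoidHom ≤ qdSub V (X.map (MulAut.conj g).toMonoidHom) := by
  rw [map_le_iff_le_comap, qdSub, closure_le]
  exact fun q hq => mem_qdSub (Tr.conj_mem_map_conj.2 hq.1) (fp_quad_conj hq.2 g)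

theorem normalizer_le_normalizer_qdSub [Finite G] [V.Normal] :
    normalizer (X : Set G) ≤ normalizer (qdSub V X : Set G) := fun g hg =>
  Tr.mem_normalizer_of_conj_mem (Tr.map_conj_le_iff.1
    ((map_qdSub_le g).trans (qdSub_mono (Tr.map_conj_eq_of_mem hg).le)))

variable [Finite G] {p : ℕ} [hp : Fact p.Prime]

theorem hasF_of_local (hp2 : p ≠ 2) {V₀ : Subgroup G} [V.Normal] (hVp : IsPGroup p V)
    (hVc : IsMulCommutative V) (h0 : V₀ ≤ V) (S : Sylow p G)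
    (hS : (S : Subgroup G) ≤ normalizer (V₀ : Set G)) (hne : normalizer (V₀ : Set G) ≠ ⊤)
    (hq : normalizer (qdSub V S : Set G) ≤ normalizer (V₀ : Set G))
    {n m : ℕ} (hnm : (n : ZMod p) * m = 1) : HasF p n m (normalizer (V₀ : Set G)) V V₀ := by
  set M := normalizer (V₀ : Set G) with hM
  have hVS : V ≤ S := hVp.le_sylow_of_normal S
  have hVq : ∀ X, V ≤ X → V ≤ qdSub V X := fun X hX v hv => mem_qdSub (hX hv) fun w hw => by
    rw [commutatorElement_eq_one_iff_mul_comm.2 (th_comm_iff.1 hVc v hv w hw),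
      commutatorElement_one_right]
  obtain ⟨W, ⟨hVW, hWM, hWp, hWq, hWN⟩, hmax⟩ := Set.exists_max_image
    {W : Subgroup G | V ≤ W ∧ W ≤ M ∧ IsPGroup p W ∧ qdSub V W = W ∧ ¬ normalizer (W : Set G) ≤ M}
    (fun W => Nat.card W) (Set.toFinite _) ⟨V, le_rfl, hVS.trans hS, hVp,
      le_antisymm qdSub_le (hVq V le_rfl), fun h => hne (eq_top_iff.2 (th_le_norm.trans h))⟩
  have u1 : ∀ Y : Subgroup G, V ≤ Y → Y ≤ M → IsPGroup p Y → Nat.card W < Nat.card (qdSub V Y) →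
      normalizer (Y : Set G) ≤ M := fun Y h1 h2 h3 h4 => by
    refine (normalizer_le_normalizer_qdSub (V := V)).trans (by_contra fun h5 => h4.not_ge ?_)
    exact hmax _ ⟨hVq Y h1, qdSub_le.trans h2, h3.to_le qdSub_le, qdSub_idem, h5⟩
  have u2 : ∀ Y : Subgroup G, V ≤ Y → Y ≤ M → Nat.card W < Nat.card (qdSub V Y) →
      ∀ P : Subgroup G, IsPGroup p P → Y ≤ P → normalizer (P : Set G) ≤ M := by
    intro Y h1 h2 h3 P h4 h5
    have h6 : P ≤ M := by
      by_contra h6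
      have h7 := Tr.lt_inf_normalizer h4 (inf_lt_left.2 h6)
      exact h7.not_ge (inf_le_inf_left _ (u1 _ (h1.trans (le_inf h5 h2)) inf_le_right h4.to_inf_left
        (h3.trans_le (card_le_of_le (qdSub_mono (le_inf h5 h2))))))
    exact u1 P (h1.trans h5) h6 h4 (h3.trans_le (card_le_of_le (qdSub_mono h5)))
  have hSi : ∀ P : Sylow p G, (P : Subgroup G) ≤ M → ¬ p ∣ (P : Subgroup G).relIndex M :=
    fun P hP h => P.not_dvd_index (h.trans (relIndex_dvd_index_of_le hP))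
  obtain ⟨k, hk, h1⟩ := Tr.exists_conj_le_sylowIn S.isPGroup' (hSi S hS) hWp hWM
  set S' : Sylow p G := k⁻¹ • S with hS'
  have hWS : W ≤ S' := fun w hw => Tr.mem_smul_sylow.2 (by simpa using h1 w hw)
  have hS'M : (S' : Subgroup G) ≤ M := fun s hs => by
    have := M.mul_mem (M.mul_mem (M.inv_mem hk) (hS (Tr.mem_smul_sylow.1 hs))) hk
    simpa [mul_assoc] using this
  have h2 : qdSub V S' ≠ W := fun h2 => hWN (by
    have h3 : (qdSub V S).map (MulAut.conj k⁻¹).toMonoidHom = W := by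
      refine eq_of_le_of_card_ge ((map_qdSub_le _).trans ?_) ?_
      · rw [← Tr.coe_smul_sylow, h2]
      · rw [Tr.card_map_conj, ← h2, ← Tr.card_map_conj _ k]
        refine card_le_of_le ((map_qdSub_le _).trans ?_)
        rw [← Tr.coe_smul_sylow, hS', smul_inv_smul]
    rw [← h3, Tr.normalizer_map_conj]
    rintro _ ⟨g, hg, rfl⟩
    exact M.mul_mem (M.mul_mem (M.inv_mem hk) (hq hg)) (M.inv_mem (M.inv_mem hk)))
  obtain ⟨X, h3, ⟨h4, h5⟩, h6⟩ := exists_maximal_ge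
    (P := fun X => X ≤ (S' : Subgroup G) ∧ qdSub V X = W) ⟨hWS, hWq⟩
  have h7 := Tr.lt_inf_normalizer S'.isPGroup' (lt_of_le_of_ne h4 fun h => h2 (h ▸ h5))
  obtain ⟨a, ⟨⟨haS, haX⟩, ha⟩, haW⟩ : ∃ a, (a ∈ (S' : Subgroup G) ⊓ normalizer (X : Set G) ∧
      ∀ v ∈ V, ⁅a, ⁅a, v⁆⁆ = 1) ∧ a ∉ W := by
    by_contra h8
    push Not at h8
    exact h7.ne' (h6 _ ⟨inf_le_left, le_antisymm ((closure_le _).2 h8)
      (h5.ge.trans (qdSub_mono h7.le))⟩ h7.le)
  have haN : a ∈ normalizer (W : Set G) := h5 ▸ normalizer_le_normalizer_qdSub haX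
  have hYS : W ⊔ zpowers a ≤ S' := sup_le hWS (zpowers_le.2 haS)
  have hY : Nat.card W < Nat.card (qdSub V (W ⊔ zpowers a)) :=
    Tr.card_lt_of_lt (lt_of_le_of_ne (hWq.ge.trans (qdSub_mono le_sup_left)) fun h =>
      haW (h ▸ mem_qdSub (mem_sup_right (mem_zpowers a)) ha))
  obtain ⟨g, hg, hgM⟩ := SetLike.not_le_iff_exists.1 hWN
  have hbM : g * a * g⁻¹ ∉ M := fun hb => hgM (by
    have h8 : (W ⊔ zpowers a).map (MulAut.conj g).toMonoidHom ≤ M := by
      rw [Subgroup.map_sup, Tr.map_conj_eq_of_mem hg, MonoidHom.map_zpowers]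
      exact sup_le hWM (zpowers_le.2 hb)
    have h9 := u2 _ ((Tr.map_conj_eq_of_mem (th_le_norm (mem_top g))).ge.trans
      (map_mono (hVW.trans le_sup_left))) h8 (hY.trans_le (by
        rw [← Tr.card_map_conj _ g]
        exact card_le_of_le (map_qdSub_le g))) _ (g • S').isPGroup'
      (Tr.coe_smul_sylow S' g ▸ map_mono hYS)
    obtain ⟨l, hl, h10⟩ := Tr.exists_conj_le_sylowIn S'.isPGroup' (hSi S' hS'M) (g • S').isPGroup'
      (le_normalizer.trans h9)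
    have h11 := u2 _ (hVW.trans le_sup_left) (hYS.trans hS'M) hY _ S'.isPGroup' hYS
      (Tr.mem_normalizer_of_conj_mem (g := l * g) fun s hs => by
        have := h10 (g * s * g⁻¹) (Tr.mem_smul_sylow.2 (by simpa [mul_assoc] using hs))
        simpa [mul_assoc] using this)
    exact (M.mul_mem_cancel_left hl).1 h11)
  set L := W ⊔ closure {a, g * a * g⁻¹} with hL
  have hWL : W ≤ L := le_sup_left
  have haL : a ∈ L := mem_sup_right (subset_closure (by simp))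
  have hbL : g * a * g⁻¹ ∈ L := mem_sup_right (subset_closure (by simp))
  have hWn : (W.subgroupOf L).Normal := (normal_subgroupOf_iff_le_normalizer hWL).2
    (sup_le le_normalizer ((closure_le _).2 (by
      rintro _ (rfl | rfl)
      exacts [haN, mul_mem (mul_mem hg haN) (inv_mem hg)])))
  have h0L := (h0.trans hVW).trans hWL
  have hYm : (W.subgroupOf L ⊔ zpowers (⟨a, haL⟩ : L)).map L.subtype = W ⊔ zpowers a := by
    rw [Subgroup.map_sup, map_subgroupOf_eq_of_le hWL, MonoidHom.map_zpowers]; rfl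
  refine ((hasF_of_pair hp2 (V := V.subgroupOf L) (W := W.subgroupOf L) (V₀ := V₀.subgroupOf L)
    (comap_mono hVW) (comap_mono h0) (a := ⟨a, haL⟩) (b := ⟨_, hbL⟩) ?_
    (fun u hu => Subtype.ext (ha u hu)) (fun u hu => Subtype.ext (fp_quad_conj ha g u hu)) ?_ ?_ ?_
    hnm).map L.subtype_injective).mono ?_ ((map_comap_le _ _)) ((map_comap_le _ _))
  · apply Subgroup.map_injective L.subtype_injective
    rw [Subgroup.map_sup, map_subgroupOf_eq_of_le hWL, MonoidHom.map_closure, Set.image_pair,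
      th_map_top_subtype]
    rfl
  · rw [← subgroupOf_normalizer_eq h0L, Ne, subgroupOf_eq_top]
    exact fun h => hbM (h hbL)
  · exact (hYm ▸ S'.isPGroup'.to_le hYS :).of_equiv
      (equivMapOfInjective _ _ L.subtype_injective).symm
  · intro P h8 h9 x hx
    rw [← subgroupOf_normalizer_eq h0L]
    exact u2 _ (hVW.trans le_sup_left) (hYS.trans hS'M) hY _ (h8.map L.subtype)
      (hYm ▸ map_mono h9) (le_normalizer_map _ (mem_map_of_mem _ hx))
  · rw [← subgroupOf_normalizer_eq h0L]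
    exact (map_comap_le _ _)

end Local

section Borel

variable {p : ℕ} [hp : Fact p.Prime] {G : Type*} [Group G]

theorem exists_qdAff_of_mem_fOver {F : Type*} [Field F] {M : SL(3, F)} (hM : M ∈ fOver F) :
    ∃ v A, A 1 0 = 0 ∧ M = qdAff v A := by
  induction hM using closure_induction with
  | mem M hM =>
    obtain ⟨v, A, rfl⟩ := exists_qdAff_of_row hM.2.1 hM.2.2.1 hM.2.2.2
    exact ⟨v, A, by simpa [coe_qdAff] using hM.1, rfl⟩
  | one => exact ⟨0, 1, by simp, qdAff_zero_one.symm⟩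
  | mul _ _ _ _ h1 h2 =>
    obtain ⟨v, A, hA, rfl⟩ := h1
    obtain ⟨w, B, hB, rfl⟩ := h2
    exact ⟨_, _, by simp [Matrix.mul_apply, Fin.sum_univ_two, hA, hB], qdAff_mul v w A B⟩
  | inv _ _ h1 =>
    obtain ⟨v, A, hA, rfl⟩ := h1
    exact ⟨_, _, by simp [Matrix.SpecialLinearGroup.SL2_inv_expl, hA], qdAff_inv v A⟩

theorem fp_exists_compl [Finite G] (hp2 : p ≠ 2) (φ : G →* SL(2, ZMod p))
    (θ : Multiplicative (Fin 2 → ZMod p) →* G) (hinj : Function.Injective θ)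
    (hconj : ∀ g v, g * θ (.ofAdd v) * g⁻¹ = θ (.ofAdd ((φ g : Matrix _ _ (ZMod p)) *ᵥ v)))
    (hneg : ∃ g, φ g = -1) :
    ∃ K : Subgroup G, (∀ g, ∃ k ∈ K, φ k = φ g) ∧ ∀ v, θ (.ofAdd v) ∈ K → v = 0 := by
  have hmem : ∀ A ∈ zpowers (-1 : SL(2, ZMod p)), A = 1 ∨ A = -1 := by
    intro A hA
    obtain ⟨n, rfl⟩ := (mem_powers_iff_mem_zpowers.2 hA)
    exact neg_one_pow_eq_or _ n
  have hn : (zpowers (-1 : SL(2, ZMod p))).Normal := ⟨fun A hA g => by
    rcases hmem A hA with rfl | rfl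
    · simp
    · simp⟩
  let N : Subgroup G := (zpowers (-1 : SL(2, ZMod p))).comap φ
  have hN : N.Normal := hn.comap _
  obtain ⟨t, ht⟩ : ∃ t : G, φ t = -1 ∧ IsPGroup 2 (zpowers t) := by
    obtain ⟨g, hg⟩ := hneg
    have h0 : orderOf g ≠ 0 := (orderOf_pos g).ne'
    obtain ⟨k, m, hm, hkm⟩ := Nat.exists_eq_two_pow_mul_odd h0
    refine ⟨g ^ m, by rw [map_pow, hg, hm.neg_one_pow], ?_⟩
    have : (g ^ m) ^ 2 ^ k = 1 := by rw [← pow_mul, mul_comm, ← hkm, pow_orderOf_eq_one]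
    obtain ⟨j, -, hj⟩ := (Nat.dvd_prime_pow Nat.prime_two).1 (orderOf_dvd_of_pow_eq_one this)
    exact IsPGroup.of_card ((Nat.card_zpowers _).trans hj)
  have htN : t ∈ N := by rw [mem_comap, ht.1]; exact mem_zpowers _
  obtain ⟨T, hT⟩ := (ht.2.comap_subtype (K := N)).exists_le_sylow
  have htT : t ∈ (T : Subgroup N).map N.subtype :=
    ⟨⟨t, htN⟩, hT (mem_subgroupOf.2 (mem_zpowers t)), rfl⟩
  have hF := Sylow.normalizer_sup_eq_top T
  refine ⟨normalizer (((T : Subgroup N).map N.subtype : Subgroup G) : Set G), fun g => ?_,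
    fun v hv => ?_⟩
  · have hg : g ∈ normalizer (((T : Subgroup N).map N.subtype : Subgroup G) : Set G) ⊔ N := by
      rw [hF]; trivial
    obtain ⟨k, hk, n, hn, rfl⟩ := mem_sup_of_normal_right.1 hg
    rcases hmem _ hn with h | h
    · exact ⟨k, hk, by rw [map_mul, h, mul_one]⟩
    · exact ⟨k * t, mul_mem hk (le_normalizer htT), by rw [map_mul, map_mul, h, ht.1]⟩
  · have h1 : ⁅t, θ (.ofAdd v)⁆ ∈ (T : Subgroup N).map N.subtype := by
      rw [commutatorElement_def, mul_assoc, mul_assoc, ← mul_assoc (θ _)]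
      exact mul_mem htT ((mem_normalizer_iff.1 hv _).1 (inv_mem htT))
    have h2 : ⁅t, θ (.ofAdd v)⁆ = θ (.ofAdd (-v + -v)) := by
      rw [commutatorElement_def, hconj, ht.1, ← map_inv, ← map_mul]
      simp [Matrix.neg_mulVec]
    have h3 : IsPGroup p θ.range := by
      rintro ⟨_, w, rfl⟩
      refine ⟨1, Subtype.ext ?_⟩
      have : w ^ p = 1 := Multiplicative.toAdd.injective (by ext i; simp)
      simp [← map_pow, this]
    have h4 := (IsPGroup.disjoint_of_ne 2 p (Ne.symm hp2) _ _ (T.2.map N.subtype) h3).le_bot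
      ⟨h1, h2 ▸ ⟨_, rfl⟩⟩
    rw [mem_bot, h2, map_eq_one_iff θ hinj, ofAdd_eq_one] at h4
    ext i
    have h5 := congrFun h4 i
    simp only [Pi.add_apply, Pi.neg_apply, Pi.zero_apply] at h5
    have h6 : (2 : ZMod p) * v i = 0 := by linear_combination -h5
    exact (mul_eq_zero.1 h6).resolve_left (QdAct.two_ne_zero' hp2)

theorem involves_fOver_of_act [Finite G] (hp2 : p ≠ 2) (φ : G →* SL(2, ZMod p))
    (θ : Multiplicative (Fin 2 → ZMod p) →* G) (hinj : Function.Injective θ)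
    (hconj : ∀ g v, g * θ (.ofAdd v) * g⁻¹ = θ (.ofAdd ((φ g : Matrix _ _ (ZMod p)) *ᵥ v)))
    (hsurj : ∀ A : SL(2, ZMod p), A 1 0 = 0 → ∃ g, φ g = A) : Involves (fOver (ZMod p)) G := by
  obtain ⟨K, hK1, hK2⟩ := fp_exists_compl hp2 φ θ hinj hconj (hsurj _ (by simp))
  let Γ : Subgroup (G × fOver (ZMod p)) :=
    { carrier := {x | ∃ v, ∃ k ∈ K, x.1 = θ (.ofAdd v) * k ∧
        (x.2 : SL(3, ZMod p)) = qdAff v (φ k)}
      one_mem' := ⟨0, 1, K.one_mem, by simp, by simp [qdAff_zero_one]⟩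
      mul_mem' := by
        rintro x y ⟨v, k, hk, h1, h2⟩ ⟨w, l, hl, h3, h4⟩
        refine ⟨_, k * l, K.mul_mem hk hl, ?_, by rw [Prod.snd_mul, coe_mul, h2, h4, qdAff_mul,
          map_mul]⟩
        rw [Prod.fst_mul, h1, h3, ofAdd_add, map_mul, ← hconj]; group
      inv_mem' := by
        rintro x ⟨v, k, hk, h1, h2⟩
        refine ⟨_, k⁻¹, K.inv_mem hk, ?_, by rw [Prod.snd_inv, coe_inv, h2, qdAff_inv, map_inv]⟩
        rw [Prod.fst_inv, h1, ofAdd_neg, map_inv, ← map_inv φ, ← hconj]; group }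
  refine Loc.CF.involves_of_inj_surj ((MonoidHom.fst _ _).comp Γ.subtype) ?_
    ((MonoidHom.snd _ _).comp Γ.subtype) ?_
  · rw [injective_iff_map_eq_one]
    rintro ⟨x, v, k, hk, h1, h2⟩ hx
    have hx1 : x.1 = 1 := hx
    have h3 : θ (.ofAdd v) = k⁻¹ := eq_inv_of_mul_eq_one_left (h1.symm.trans hx1)
    obtain rfl : v = 0 := hK2 v (h3 ▸ K.inv_mem hk)
    obtain rfl : k = 1 := by rw [ofAdd_zero, map_one] at h3; exact inv_eq_one.1 h3.symm
    rw [map_one, qdAff_zero_one] at h2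
    exact Subtype.ext (Prod.ext hx1 (Subtype.ext h2))
  · rintro ⟨M, hM⟩
    obtain ⟨v, A, hA, rfl⟩ := exists_qdAff_of_mem_fOver hM
    obtain ⟨g, rfl⟩ := hsurj A hA
    obtain ⟨k, hk, h⟩ := hK1 g
    exact ⟨⟨(θ (.ofAdd v) * k, ⟨_, hM⟩), v, k, hk, rfl, by rw [h]⟩, rfl⟩

theorem fp_pow_natCast {g : G} (hg : g ^ p = 1) (n : ℕ) : g ^ (n : ZMod p).val = g ^ n := by
  rw [ZMod.val_natCast, ← pow_eq_pow_mod n hg]

theorem fp_pow_add {g : G} (hg : g ^ p = 1) (k l : ZMod p) :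
    g ^ (k + l).val = g ^ k.val * g ^ l.val := by
  rw [ZMod.val_add, ← pow_eq_pow_mod _ hg, pow_add]

theorem fp_pow_mul {g : G} (hg : g ^ p = 1) (k l : ZMod p) :
    g ^ (k * l).val = (g ^ k.val) ^ l.val := by
  rw [ZMod.val_mul, ← pow_eq_pow_mod _ hg, pow_mul]

theorem fp_pow_eq_one {g : G} (hg : g ^ p = 1) (h1 : g ≠ 1) {k : ZMod p} (h : g ^ k.val = 1) :
    k = 0 := by
  have h2 := orderOf_dvd_of_pow_eq_one h
  rw [orderOf_eq_prime hg h1] at h2
  exact (ZMod.val_eq_zero k).1 (Nat.eq_zero_of_dvd_of_lt h2 (ZMod.val_lt k))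

variable {n m : ℕ}

theorem FDat.involves_bot [Finite G] (hp2 : p ≠ 2) {x t e₀ e₁ : G} (h : FDat p n m ⊥ x t e₀ e₁)
    (hnm : (n : ZMod p) * m = 1) (hgen : ∀ a : ZMod p, a ≠ 0 → ∃ k : ℕ, (n : ZMod p) ^ k = a) :
    Involves (fOver (ZMod p)) G := by
  have p0 : e₀ ^ p = 1 := h.p0
  have p1 : e₁ ^ p = 1 := h.p1
  have c : Commute e₀ e₁ := commutatorElement_eq_one_iff_commute.1 h.c01
  have x0 : x * e₀ * x⁻¹ = e₀ := mul_inv_eq_one.1 h.x0
  have x1 : x * e₁ * x⁻¹ = e₀ ^ (-1 : ZMod p).val * e₁ := by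
    have h1 := fp_pow_add p0 (-1) 1
    rw [neg_add_cancel, ZMod.val_zero, pow_zero, ZMod.val_one, pow_one] at h1
    rw [← mul_inv_eq_iff_eq_mul, ← commutatorElement_def]
    exact mul_right_cancel ((mem_bot.1 h.x1).trans h1)
  have t0 : t * e₀ * t⁻¹ = e₀ ^ (n : ZMod p).val := by
    rw [fp_pow_natCast p0]; exact mul_inv_eq_one.1 h.t0
  have t1 : t * e₁ * t⁻¹ = e₁ ^ (m : ZMod p).val := by
    rw [fp_pow_natCast p1]; exact mul_inv_eq_one.1 h.t1
  let θ : Multiplicative (Fin 2 → ZMod p) →* G := MonoidHom.mk'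
    (fun v => e₀ ^ (v.toAdd 0).val * e₁ ^ (v.toAdd 1).val) fun v w => by
      simp only [toAdd_mul, Pi.add_apply, fp_pow_add p0, fp_pow_add p1]
      exact (c.pow_pow _ _).mul_mul_mul_comm _ _
  have hθ : ∀ v, θ (.ofAdd v) = e₀ ^ (v 0).val * e₁ ^ (v 1).val := fun _ => rfl
  have hc : ∀ g v, g * θ (.ofAdd v) * g⁻¹ =
      (g * e₀ * g⁻¹) ^ (v 0).val * (g * e₁ * g⁻¹) ^ (v 1).val := fun g v => by
    rw [hθ, th_conj_pow, th_conj_pow]; group
  have hx : ∀ v, x * θ (.ofAdd v) * x⁻¹ =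
      θ (.ofAdd (((slUp (-1) : SL(2, ZMod p)) : Matrix _ _ (ZMod p)) *ᵥ v)) := fun v => by
    rw [hc, x0, x1, (c.pow_left _).mul_pow, ← fp_pow_mul p0, ← mul_assoc, ← fp_pow_add p0, hθ]
    simp [Matrix.mulVec, dotProduct, Fin.sum_univ_two]
  let d : SL(2, ZMod p) := ⟨!![(n : ZMod p), 0; 0, m], by simp [Matrix.det_fin_two, hnm]⟩
  have ht : ∀ v, t * θ (.ofAdd v) * t⁻¹ = θ (.ofAdd ((d : Matrix _ _ (ZMod p)) *ᵥ v)) := fun v => by
    rw [hc, t0, t1, ← fp_pow_mul p0, ← fp_pow_mul p1, hθ]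
    simp [d, Matrix.mulVec, dotProduct, Fin.sum_univ_two]
  have hinj : Function.Injective θ := (injective_iff_map_eq_one θ).2 fun v hv => by
    have h1 := hc x v.toAdd
    have h2 := hθ v.toAdd
    rw [ofAdd_toAdd, hv] at h1 h2
    rw [mul_one, mul_inv_cancel, x0, x1, (c.pow_left _).mul_pow, ← fp_pow_mul p0, ← mul_assoc,
      ((Commute.refl e₀).pow_pow _ _).eq, mul_assoc, ← h2, mul_one] at h1
    have h3 := fp_pow_eq_one p0 h.ne h1.symm
    rw [neg_one_mul, neg_eq_zero] at h3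
    rw [h3, ZMod.val_zero, pow_zero, mul_one] at h2
    refine Multiplicative.toAdd.injective (funext fun i => ?_)
    fin_cases i
    exacts [fp_pow_eq_one p0 h.ne h2.symm, h3]
  let Δ : Subgroup (G × SL(2, ZMod p)) :=
    { carrier := {g | ∀ v, g.1 * θ (.ofAdd v) * g.1⁻¹ = θ (.ofAdd ((g.2 : Matrix _ _ (ZMod p)) *ᵥ v))}
      one_mem' := fun v => by simp
      mul_mem' := fun {g h} hg hh v => by
        rw [Prod.fst_mul, Prod.snd_mul, Matrix.SpecialLinearGroup.coe_mul, ← Matrix.mulVec_mulVec,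
          ← hg, ← hh]
        group
      inv_mem' := fun {g} hg v => by
        have := hg (((g.2⁻¹ : SL(2, ZMod p)) : Matrix _ _ (ZMod p)) *ᵥ v)
        rw [Matrix.mulVec_mulVec, ← Matrix.SpecialLinearGroup.coe_mul, mul_inv_cancel,
          Matrix.SpecialLinearGroup.coe_one, Matrix.one_mulVec] at this
        rw [Prod.fst_inv, Prod.snd_inv, ← this]
        group }
  have hθΔ : ∀ v, (θ v, (1 : SL(2, ZMod p))) ∈ Δ := fun v w => by
    simp only [Matrix.SpecialLinearGroup.coe_one, Matrix.one_mulVec]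
    rw [← map_mul, mul_comm, map_mul, mul_inv_cancel_right]
  refine Loc.CF.involves_trans (involves_fOver_of_act hp2 ((MonoidHom.snd _ _).comp Δ.subtype)
    ((θ.prod 1).codRestrict Δ hθΔ) (fun v w h => hinj (congrArg (fun g : Δ => g.1.1) h))
    (fun g v => Subtype.ext (Prod.ext (g.2 v) (by change g.1.2 * 1 * g.1.2⁻¹ = 1; simp))) fun A hA => ?_)
    (Loc.CF.involves_of_injective ((MonoidHom.fst _ _).comp Δ.subtype) ?_)
  · have hd := A.det_coe
    rw [Matrix.det_fin_two, hA, mul_zero, sub_zero] at hd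
    obtain ⟨k, hk⟩ := hgen (A 0 0) (left_ne_zero_of_mul_eq_one hd)
    have h1 : ∀ k : ℕ, ((d ^ k : SL(2, ZMod p)) : Matrix _ _ (ZMod p)) =
        !![(n : ZMod p) ^ k, 0; 0, (m : ZMod p) ^ k] := fun k => by
      induction k with
      | zero => ext i j; fin_cases i <;> fin_cases j <;> simp
      | succ k ih =>
        rw [pow_succ, Matrix.SpecialLinearGroup.coe_mul, ih]
        ext i j; fin_cases i <;> fin_cases j <;> simp [d, pow_succ]
    have h2 : (n : ZMod p) ^ k * (m : ZMod p) ^ k = 1 := by rw [← mul_pow, hnm, one_pow]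
    refine ⟨⟨(t, d), ht⟩ ^ k * ⟨(x, _), hx⟩ ^ (-((m : ZMod p) ^ k * A 0 1)).val, ?_⟩
    rw [map_mul, map_pow, map_pow]
    change d ^ k * slUp (-1) ^ _ = A
    rw [slUp_pow]
    ext i j
    rw [Matrix.SpecialLinearGroup.coe_mul, h1]
    fin_cases i <;> fin_cases j <;> simp [Matrix.mul_apply, Fin.sum_univ_two, hA, hk]
    · rw [← mul_assoc, ← hk, h2, one_mul]
    · rw [← hk] at hd
      exact mul_left_cancel₀ (left_ne_zero_of_mul_eq_one h2) (h2.trans hd.symm)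
  · rw [injective_iff_map_eq_one]
    intro g hg
    have hg1 : g.1.1 = 1 := hg
    refine Subtype.ext (Prod.ext hg1 ?_)
    have h1 : ∀ v, (g.1.2 : Matrix (Fin 2) (Fin 2) (ZMod p)) *ᵥ v = v := fun v => by
      have := g.2 v
      rw [hg1, one_mul, inv_one, mul_one] at this
      exact (Multiplicative.ofAdd.injective (hinj this)).symm
    ext i j
    have := congrFun (h1 (Pi.single j 1)) i
    simpa [Matrix.mulVec_single, Pi.single_apply, Matrix.one_apply] using this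

theorem HasF.involves [Finite G] (hp2 : p ≠ 2) {H : Subgroup G} (h : HasF p n m H H H)
    (hnm : (n : ZMod p) * m = 1) (hgen : ∀ a : ZMod p, a ≠ 0 → ∃ k : ℕ, (n : ZMod p) ^ k = a) :
    Involves (fOver (ZMod p)) H := by
  obtain ⟨U, x, hx, t, ht, e₀, h0, e₁, h1, h⟩ := h
  set K := H ⊓ normalizer (U : Set G) with hK
  have hn : (U.subgroupOf K).Normal := ⟨fun u hu k =>
    mem_subgroupOf.2 (Tr.conj_mem_of_mem_normalizer k.2.2 hu)⟩
  set f := QuotientGroup.mk' (U.subgroupOf K) with hf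
  have k : ∀ g : K, f g ∈ (⊥ : Subgroup _) ↔ (g : G) ∈ U := fun g => QuotientGroup.eq_one_iff g
  refine Loc.CF.involves_trans (FDat.involves_bot hp2 (x := f ⟨x, hx, h.xU⟩) (t := f ⟨t, ht, h.tU⟩)
    (e₀ := f ⟨e₀, h0, h.e0U⟩) (e₁ := f ⟨e₁, h1, h.e1U⟩) ⟨th_le_norm (mem_top _),
      th_le_norm (mem_top _), th_le_norm (mem_top _), th_le_norm (mem_top _),
      fun h2 => h.ne ((k _).1 h2), ?_, ?_, ?_, ?_, ?_, ?_, ?_⟩ hnm hgen)
    (Loc.CF.involves_trans (Loc.CF.involves_quotient _)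
      (Loc.CF.involves_of_injective (inclusion inf_le_left) (inclusion_injective _)))
  all_goals simp only [← map_commutatorElement, ← map_pow, ← map_inv, ← map_mul, k]
  exacts [h.p0, h.p1, h.c01, h.x0, h.x1, h.t0, h.t1]

theorem HasF.exists_eigen [Finite G] {H V Z : Subgroup G} (h : HasF p n m H V Z)
    (hZ : IsPGroup p Z) (hc : IsMulCommutative Z) (hH : H ≤ normalizer (Z : Set G)) :
    ∃ t ∈ H, ∃ z ∈ Z, z ≠ 1 ∧ z ^ p = 1 ∧ t * z * t⁻¹ = z ^ n := by
  obtain ⟨U, x, -, t, ht, e₀, h0, e₁, -, h⟩ := h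
  have c : ∀ a ∈ Z, ∀ b ∈ Z, Commute a b := th_comm_iff.1 hc
  let K : Subgroup G :=
    { carrier := {z | z ∈ Z ∧ t * z * t⁻¹ = z ^ n}
      one_mem' := ⟨Z.one_mem, by simp⟩
      mul_mem' := fun {a b} ha hb => ⟨Z.mul_mem ha.1 hb.1, by
        rw [(c a ha.1 b hb.1).mul_pow, ← ha.2, ← hb.2]; group⟩
      inv_mem' := fun {a} ha => ⟨Z.inv_mem ha.1, by rw [inv_pow, ← ha.2]; group⟩ }
  have hK : K ≠ ⊥ := fun hK => by
    have hF : ∀ a ∈ Z, ∀ b ∈ Z, t * a * t⁻¹ * (a ^ n)⁻¹ = t * b * t⁻¹ * (b ^ n)⁻¹ → a = b := by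
      intro a ha b hb h1
      refine inv_mul_eq_one.1 (mem_bot.1 (hK ▸ (⟨Z.mul_mem (Z.inv_mem ha) hb, ?_⟩ : _ ∈ K)))
      rw [(c _ (Z.inv_mem ha) b hb).mul_pow, inv_pow]
      calc t * (a⁻¹ * b) * t⁻¹ = (t * a * t⁻¹)⁻¹ * (t * b * t⁻¹ * (b ^ n)⁻¹) * b ^ n := by group
        _ = _ := by rw [← h1]; group
    let F : ↥(Z ⊓ U) → ↥(Z ⊓ U) := fun w => ⟨t * w * t⁻¹ * ((w : G) ^ n)⁻¹,
      mul_mem (Tr.conj_mem_of_mem_normalizer (inf_normalizer_le_normalizer_inf ⟨hH ht, h.tU⟩) w.2)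
        (inv_mem (pow_mem w.2 n))⟩
    obtain ⟨w, hw⟩ := Finite.injective_iff_surjective.1 (show Function.Injective F from
      fun a b hab => Subtype.ext (hF _ a.2.1 _ b.2.1 (congrArg Subtype.val hab)))
      ⟨_, Z.mul_mem (Tr.conj_mem_of_mem_normalizer (hH ht) h0) (Z.inv_mem (Z.pow_mem h0 n)), h.t0⟩
    exact h.ne (hF _ w.2.1 _ h0 (congrArg Subtype.val hw) ▸ w.2.2)
  obtain ⟨z, hz, -, h1, h2⟩ := th_exists_center_order (hZ.to_le (H := K) fun _ hz => hz.1) hK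
  exact ⟨t, ht, z, hz.1, h1, h2, hz.2⟩

theorem relIndex_eq_of_eigen [Finite G] {H : Subgroup G} {t z : G} (ht : t ∈ H) (h1 : z ≠ 1)
    (h2 : z ^ p = 1) (h3 : t * z * t⁻¹ = z ^ n) (hn : orderOf (n : ZMod p) = p - 1) :
    (H ⊓ centralizer (zpowers z : Set G)).relIndex (H ⊓ normalizer (zpowers z : Set G)) = p - 1 := by
  have ho := orderOf_eq_prime h2 h1
  let ψ := (zpowers z).normalizerMonoidHom.comp
    (inclusion (inf_le_right : H ⊓ normalizer (zpowers z : Set G) ≤ _))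
  have hk : ψ.ker = (H ⊓ centralizer (zpowers z : Set G)).subgroupOf _ := by
    ext g
    rw [← MonoidHom.comap_ker, normalizerMonoidHom_ker]
    exact ⟨fun h => ⟨g.2.1, h⟩, fun h => h.2⟩
  rw [relIndex, ← hk]
  refine Nat.dvd_antisymm ?_ ?_
  · rw [index_ker, ← Nat.totient_prime hp.out, ← ho, ← Nat.card_zpowers, ← IsCyclic.card_mulAut]
    exact card_subgroup_dvd_card _
  have h4 : t ∈ normalizer (zpowers z : Set G) := Tr.mem_normalizer_of_conj_mem (by
    rintro _ ⟨k, rfl⟩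
    rw [← conj_zpow, h3]
    exact zpow_mem (pow_mem (mem_zpowers z) n) k)
  have h5 := pow_index_mem (H := ψ.ker) ⟨t, ht, h4⟩
  have h6 : ∀ k : ℕ, t ^ k * z * (t ^ k)⁻¹ = z ^ n ^ k := fun k => by
    induction k with
    | zero => simp
    | succ k ih =>
      rw [pow_succ' t, pow_succ' n, pow_mul, ← h3, th_conj_pow, ← ih]
      group
  generalize ψ.ker.index = r at h5 ⊢
  rw [hk] at h5
  have h7 := h6 r
  rw [show t ^ r * z = z * t ^ r from (h5.2 z (mem_zpowers z)).symm, mul_inv_cancel_right] at h7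
  rw [← hn, orderOf_dvd_iff_pow_eq_one, ← Nat.cast_pow, ← Nat.cast_one, ZMod.natCast_eq_natCast_iff,
    ← ho, ← pow_eq_pow_iff_modEq, ← h7, pow_one]

end Borel

end Cfsg.Agent.GT
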