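import Mathlib
import Cfsg.Agent.GT.ThompsonFp2

/-!
# Failure of control of strong fusion by `Z(J(S))` produces a section `F(p)` of its normalizer
-/

set_option autoImplicit false

namespace Cfsg.Agent.GT

open Subgroup Cfsg.Agent.Loc.CF
open scoped commutatorElement

universe u

section Sect

variable {G : Type*} [Group G] [Finite G] {p : ℕ} [hp : Fact p.Prime] {n m : ℕ}

theorem hasF_of_local_mod (hp2 : p ≠ 2) {Z V V₀ : Subgroup G} [Z.Normal] [V.Normal]
    (hVp : IsPGroup p V) (hZ : Z ≤ V₀) (h0 : V₀ ≤ V) (hVc : ⁅V, V⁆ ≤ Z) (S : Sylow p G)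
    (hZS : Z ≤ S) (hS : (S : Subgroup G) ≤ normalizer (V₀ : Set G))
    (hne : normalizer (V₀ : Set G) ≠ ⊤)
    (hq : ∀ R : Subgroup G, R ≤ S → (S : Subgroup G) ≤ normalizer (R : Set G) →
      (∀ q ∈ (S : Subgroup G), (∀ v ∈ V, ⁅q, ⁅q, v⁆⁆ ∈ Z) → q ∈ R) →
      normalizer (R : Set G) ≤ normalizer (V₀ : Set G))
    (hnm : (n : ZMod p) * m = 1) : HasF p n m (normalizer (V₀ : Set G)) V V₀ := by
  set π := QuotientGroup.mk' Z
  have hπ : Function.Surjective π := QuotientGroup.mk'_surjective Z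
  have := normal_map_mk' (N := Z) V
  have h1 : (normalizer (V₀.map π : Set (G ⧸ Z))).comap π = normalizer (V₀ : Set G) := by
    rw [comap_normalizer_map_mk', sup_eq_left.2 hZ]
  have h2 : (normalizer (V₀ : Set G)).map π = normalizer (V₀.map π : Set (G ⧸ Z)) := by
    rw [← h1, map_comap_eq_self_of_surjective hπ]
  refine HasF.of_map π ?_
  rw [h2]
  refine hasF_of_local hp2 (hVp.map π)
    (commutator_self_eq_bot_iff.1 (commutator_le_iff_map_mk'.1 hVc)) (map_mono h0)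
    (S.mapSurjective hπ) (map_le_normalizer_map hS π) (fun ht => hne ?_) ?_ hnm
  · rw [← h1, ht, comap_top]
  set R := qdSub (V.map π) ((S : Subgroup G).map π)
  have h3 := hq (R.comap π) ?_ (le_normalizer_comap_of_map_le
    (le_normalizer.trans (normalizer_le_normalizer_qdSub (V := V.map π)))) ?_
  · rw [← h2, ← map_comap_eq_self_of_surjective hπ (normalizer _),
      comap_normalizer_eq_of_surjective _ hπ]
    exact map_mono h3
  · refine (comap_mono qdSub_le).trans ?_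
    rw [comap_map_mk', sup_eq_left.2 hZS]
  · intro q hq' h4
    refine mem_qdSub (mem_map_of_mem π hq') ?_
    rintro _ ⟨v, hv, rfl⟩
    rw [← map_commutatorElement, ← map_commutatorElement]
    exact (QuotientGroup.eq_one_iff _).2 (h4 v hv)

theorem hasF_of_local_sub (hp2 : p ≠ 2) {N Z V V₀ T : Subgroup G} (hZ : Z ≤ V₀) (h0 : V₀ ≤ V)
    (hVT : V ≤ T) (hTN : T ≤ N) (hNZ : N ≤ normalizer (Z : Set G))
    (hNV : N ≤ normalizer (V : Set G)) (hT : IsPGroup p T) (hi : ¬ p ∣ T.relIndex N)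
    (hVc : ⁅V, V⁆ ≤ Z) (hS : T ≤ normalizer (V₀ : Set G)) (hne : ¬ N ≤ normalizer (V₀ : Set G))
    (hq : ∀ R : Subgroup G, R ≤ T → T ≤ normalizer (R : Set G) →
      (∀ q ∈ T, (∀ v ∈ V, ⁅q, ⁅q, v⁆⁆ ∈ Z) → q ∈ R) →
      N ⊓ normalizer (R : Set G) ≤ normalizer (V₀ : Set G))
    (hnm : (n : ZMod p) * m = 1) : HasF p n m (N ⊓ normalizer (V₀ : Set G)) V V₀ := by
  have := normal_subgroupOf_of_le_normalizer hNZ
  have := normal_subgroupOf_of_le_normalizer hNV
  have hVN := hVT.trans hTN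
  have e0 := map_subtype_subgroupOf_of_le (h0.trans hVN)
  have e1 : normalizer (V₀.subgroupOf N : Set N) = (normalizer (V₀ : Set G)).subgroupOf N := by
    rw [normalizer_eq_subgroupOf, e0]
  have := (hasF_of_local_mod (n := n) (m := m) hp2 (Z := Z.subgroupOf N) (V := V.subgroupOf N)
    (V₀ := V₀.subgroupOf N) (hT.to_le hVT).comap_subtype (comap_mono hZ) (comap_mono h0) ?_
    (Tr.sylowOfRel hT hi) (comap_mono ((hZ.trans h0).trans hVT)) ?_ ?_ ?_ hnm).map
    N.subtype_injective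
  · rwa [map_normalizer_subtype, e0, map_subtype_subgroupOf_of_le hVN] at this
  · exact commutator_le.2 fun a ha b hb => hVc (commutator_mem_commutator ha hb)
  · rw [e1]; exact comap_mono hS
  · rw [e1]; exact fun h => hne (subgroupOf_eq_top.1 h)
  · intro R h1 h2 h3
    rw [e1, normalizer_eq_subgroupOf]
    have h4 := hq (R.map N.subtype) (map_le_iff_le_comap.2 h1) ?_ fun q hq h4 =>
      ⟨⟨q, hTN hq⟩, h3 _ hq fun v hv => h4 v hv, rfl⟩
    · exact fun x hx => h4 ⟨x.2, hx⟩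
    · rw [normalizer_eq_subgroupOf] at h2
      exact fun t ht => h2 (x := ⟨t, hTN ht⟩) ht

omit hp in
theorem fp_thJ_eq {S T : Subgroup G} (h1 : thJ 0 S ≤ T) {g : G}
    (hg : ∀ t ∈ T, g * t * g⁻¹ ∈ S) : thJ 0 T = thJ 0 S := by
  have h2 : ∀ A ∈ abFam 0 S, A ∈ abFam 0 T := fun A hA =>
    ⟨(le_thJ hA).trans h1, abFam_comm hA, abFam_pow hA, fun B hB hc _ =>
      Tr.card_map_conj B g ▸ abFam_card_le hA (Tr.map_conj_le_iff.2 fun b hb => hg b (hB hb))
        (th_comm_map _ hc) fun _ _ => pow_zero _⟩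
  obtain ⟨A, hA⟩ := abFam_nonempty 0 S
  have h3 := Tr.map_conj_le_iff.2 hg
  have h4 : A.map (MulAut.conj g).toMonoidHom ≤ T.map (MulAut.conj g).toMonoidHom :=
    map_mono ((le_thJ hA).trans h1)
  have h5 := thJ_le_thJ_of_mem (mem_abFam_of_card_le hA (h4.trans h3)
    (th_comm_map _ (abFam_comm hA)) (fun _ _ => pow_zero _) (Tr.card_map_conj A g).ge) h4 h3
  rw [thJ_map_equiv] at h5
  exact (eq_of_le_of_card_ge (thJ_le_iff.2 fun A hA => le_thJ (h2 A hA))
    (Tr.card_map_conj _ g ▸ card_le_of_le h5)).symm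

theorem fp_exists_central {Z X P : Subgroup G} [Z.Normal] (hP : IsPGroup p P) (hX : X ≤ P)
    (hn : P ≤ normalizer (X : Set G)) (h : ¬ X ≤ Z) : ∃ x ∈ X, x ∉ Z ∧ x ∈ cmod P Z := by
  set π := QuotientGroup.mk' Z
  have h1 := th_inf_center_ne_bot (hP.map π) (map_mono hX) (map_le_normalizer_map hn π)
    fun hb => h (map_mk'_eq_bot_iff.1 hb)
  obtain ⟨⟨_, ⟨x, hx, rfl⟩, h2⟩, h3⟩ := ne_bot_iff_exists_ne_one.1 h1
  refine ⟨x, hx, fun h4 => h3 (Subtype.ext ((QuotientGroup.eq_one_iff x).2 h4)),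
    th_le_norm (mem_top x), fun b hb => (QuotientGroup.eq_one_iff _).1 ?_⟩
  change π ⁅x, b⁆ = 1
  rw [map_commutatorElement, commutatorElement_eq_one_iff_mul_comm]
  exact (h2 _ (mem_map_of_mem π hb)).symm

/-- The closure of `X` under conjugation by `N`. -/
def fpCl (N X : Subgroup G) : Subgroup G := sInf {D | X ≤ D ∧ N ≤ normalizer (D : Set G)}

omit [Finite G] in
theorem le_fpCl (N X : Subgroup G) : X ≤ fpCl N X := le_sInf fun _ h => h.1

omit [Finite G] in
theorem fpCl_le {N X D : Subgroup G} (h1 : X ≤ D) (h2 : N ≤ normalizer (D : Set G)) :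
    fpCl N X ≤ D := sInf_le ⟨h1, h2⟩

theorem le_normalizer_fpCl (N X : Subgroup G) : N ≤ normalizer (fpCl N X : Set G) :=
  fun _ hg => Tr.mem_normalizer_of_conj_mem fun _ ha => mem_sInf.2 fun D hD =>
    Tr.conj_mem_of_mem_normalizer (hD.2 hg) (mem_sInf.1 ha D hD)

omit [Finite G] hp in
theorem fp_quad_of_normalizer {A B : Subgroup G} (hA : IsMulCommutative A)
    (hB : B ≤ normalizer (A : Set G)) {a b : G} (ha : a ∈ A) (hb : b ∈ B) : ⁅a, ⁅a, b⁆⁆ = 1 :=
  commutatorElement_eq_one_iff_mul_comm.2 (th_comm_iff.1 hA a ha _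
    (le_normalizer_iff_commutator_le_left.1 hB (commutator_mem_commutator ha hb)))

/-- A quadratic element outside `Q` when `J(S)` is not inside `Q`. -/
theorem fp_quad_of_not_le {S Q B : Subgroup G} (hS : IsPGroup p S) (hQ : Q ≤ S) (hB : B ≤ Q)
    (hSB : S ≤ normalizer (B : Set G)) (hc : B ≤ centralizer (Q : Set G)) (h : ¬ thJ 0 S ≤ Q) :
    ∃ u ∈ S, u ∉ Q ∧ ∀ b ∈ B, ⁅u, ⁅u, b⁆⁆ = 1 := by
  rw [thJ_le_iff] at h
  push Not at h
  obtain ⟨U, hU, hUQ⟩ := h
  have hBc : IsMulCommutative B :=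
    le_centralizer_iff_isMulCommutative.1 (hc.trans (centralizer_le hB))
  obtain ⟨A, hA, h1, h2⟩ : ∃ A ∈ abFam 0 S, ¬ A ≤ Q ∧ B ≤ normalizer (A : Set G) := by
    by_cases hBU : B ≤ U
    · exact ⟨U, hU, hUQ, hBU.trans le_normalizer⟩
    obtain ⟨A, hA, -, h2, h3⟩ := abFam_exists_normalized (Or.inl rfl) hS le_rfl (hB.trans hQ) hSB
      ((hB.trans hQ).trans le_normalizer) (fun _ => hBc) hU
      ((commutator_self_eq_bot_iff.2 hBc).le.trans bot_le) hBU
    refine ⟨A, hA, fun h4 => h2 ?_, h3⟩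
    rw [← abFam_zero_inf_centralizer hA]
    exact le_inf (hB.trans hQ) (hc.trans (centralizer_le h4))
  obtain ⟨u, hu, h3⟩ := SetLike.not_le_iff_exists.1 h1
  exact ⟨u, abFam_le hA hu, h3, fun b hb => fp_quad_of_normalizer (abFam_comm hA) h2 hu hb⟩

/-- A quadratic element outside `Q` when `B` is not inside `Z(J(S))`. -/
theorem fp_quad_of_not_le_thZ (hp2 : p ≠ 2) {S Q B : Subgroup G} (hS : IsPGroup p S) (hQ : Q ≤ S)
    (hB : B ≤ Q) (hSB : S ≤ normalizer (B : Set G)) (hc : ⁅B, B⁆ ≤ thZ 0 S) (h : ¬ B ≤ thZ 0 S)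
    (hJ : thJ 0 Q ≤ thJ 0 S → B ≤ centralizer (thJ 0 Q : Set G)) :
    ∃ u ∈ S, u ∉ Q ∧ ∀ b ∈ B, ⁅u, ⁅u, b⁆⁆ = 1 := by
  obtain ⟨U, hU, hBU⟩ : ∃ U ∈ abFam 0 S, ¬ B ≤ U := by
    by_contra h1
    push Not at h1
    refine h ?_
    rw [thZ_zero_eq]
    refine le_inf (hB.trans hQ) (le_centralizer_iff.1 (thJ_le_iff.2 fun A hA => ?_))
    exact (le_centralizer_iff_isMulCommutative.2 (abFam_comm hA)).trans (centralizer_le (h1 A hA))
  obtain ⟨A, hA, -, h2, h3⟩ := abFam_exists_normalized (Or.inl rfl) hS le_rfl (hB.trans hQ) hSB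
    ((hB.trans hQ).trans le_normalizer) (fun h => (hp2 h).elim) hU
    (hc.trans (thZ_zero_le_of_mem hU)) hBU
  have h1 : ¬ A ≤ Q := fun h4 => h2 (by
    rw [← abFam_zero_inf_centralizer hA]
    exact le_inf (hB.trans hQ) ((hJ (thJ_le_thJ_of_mem hA h4 hQ)).trans
      (centralizer_le (le_thJ (mem_abFam_of_le hA h4 hQ)))))
  obtain ⟨u, hu, h4⟩ := SetLike.not_le_iff_exists.1 h1
  exact ⟨u, abFam_le hA hu, h4, fun b hb => fp_quad_of_normalizer (abFam_comm hA) h3 hu hb⟩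

end Sect

section Global

variable {G : Type*} [Group G] [Finite G] {p : ℕ} [hp : Fact p.Prime] {n m : ℕ}

/-- Admissible subgroups. -/
def FpAdm (S Q : Subgroup G) : Prop :=
  (thZ 0 S).normalCore ≤ Q ∧ Q ≤ S ∧ ¬ thZ 0 S ⊓ Q ≤ (thZ 0 S).normalCore

/-- Good subgroups. -/
def FpGood (S Q : Subgroup G) : Prop :=
  normalizer (Q : Set G) ≤ normalizer ((thZ 0 S ⊓ Q : Subgroup G) : Set G)

/-- Control of fusion in the normalizers of non-normal subgroups of `Z(J(S))`. -/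
def FpK (S : Subgroup G) : Prop :=
  ∀ X : Subgroup G, X ≤ thZ 0 S → ¬ X ≤ (thZ 0 S).normalCore →
    ThCtrl (normalizer (X : Set G)) (normalizer (thZ 0 S : Set G)) (S ⊓ normalizer (X : Set G))

variable {S Q : Subgroup G}

omit [Finite G] in
theorem FpK.real (h : FpK S) {X : Subgroup G} (h1 : X ≤ thZ 0 S) (h2 : ¬ X ≤ (thZ 0 S).normalCore)
    (hQ : Q ≤ S) (h3 : Q ≤ normalizer (X : Set G)) {g : G} (hg : g ∈ normalizer (Q : Set G))
    (hg' : g ∈ normalizer (X : Set G)) : ThReal (normalizer (thZ 0 S : Set G)) Q g :=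
  h X h1 h2 Q (le_inf hQ h3) g hg' fun _ ha =>
    le_inf hQ h3 (Tr.conj_mem_of_mem_normalizer hg ha)

theorem fpGood_of_real (h : ∀ g ∈ normalizer (Q : Set G), ThReal (normalizer (thZ 0 S : Set G)) Q g) :
    FpGood S Q := fun g hg => Tr.mem_normalizer_of_conj_mem fun a ha => by
  obtain ⟨k, hk, h1⟩ := h g hg
  refine ⟨?_, Tr.conj_mem_of_mem_normalizer hg ha.2⟩
  rw [h1 a ha.2]
  exact Tr.conj_mem_of_mem_normalizer hk ha.1

theorem FpAdm.exists_central (h : FpAdm S Q) (hS : IsPGroup p S) {P : Subgroup G} (h1 : Q ≤ P)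
    (h2 : P ≤ S) : ∃ z ∈ thZ 0 S ⊓ P, z ∉ (thZ 0 S).normalCore ∧
      z ∈ cmod P (thZ 0 S).normalCore :=
  fp_exists_central (hS.to_le h2) inf_le_right
    (CopAct.le_normalizer_inf (h2.trans (le_normalizer_thZ 0 S)) le_normalizer)
    fun h3 => h.2.2 ((inf_le_inf_left _ h1).trans h3)

theorem fpAdm_of_rad (P : Sylow p G) (h : FpAdm (P : Subgroup G) P) {B : Subgroup G} (hB : B ≤ P)
    (hr : ThRad p (P : Subgroup G) B) : FpAdm (P : Subgroup G) B := by
  set Z := (thZ 0 (P : Subgroup G)).normalCore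
  have hZ : IsPGroup p Z := P.isPGroup'.to_le h.1
  have h1 : Z ≤ B := hr.le_of_normal hB hZ
  obtain ⟨z, hz, h2, h3⟩ := h.exists_central P.isPGroup' le_rfl le_rfl
  refine ⟨h1, hB, fun h4 => h2 (h4 ⟨hz.1, ?_⟩)⟩
  refine hr (normalizer (B : Set G) ⊓ (centralizer (Z : Set G) ⊓ cmod B Z)) inf_le_left
    (CopAct.le_normalizer_inf le_normalizer (CopAct.le_normalizer_inf th_le_norm
      (le_normalizer_cmod le_rfl th_le_norm))) (fun k hk hko => fp_coprime hZ hko hk.2.1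
      (th_le_norm (mem_top k)) fun u hu => ?_) ⟨hz.2, ?_, ?_, h3.1, fun b hb => h3.2 b (hB hb)⟩
  · rw [← commutatorElement_inv]
    exact inv_mem (hk.2.2.2 u hu)
  · refine Tr.mem_normalizer_of_conj_mem fun b hb => ?_
    have := mul_mem (h1 (h3.2 b (hB hb))) hb
    rwa [commutatorElement_def, inv_mul_cancel_right] at this
  · exact fun y hy => th_comm_iff.1 (thZ_comm 0 _) y (normalCore_le _ hy) z hz.1

theorem FpK.large (P : Sylow p G) (h : FpK (P : Subgroup G)) (hP : FpAdm (P : Subgroup G) P)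
    (k : ℕ) (hk : ∀ Q : Subgroup G, FpAdm (P : Subgroup G) Q →
      k < Nat.card ((P : Subgroup G) ⊓ normalizer (Q : Set G) : Subgroup G) →
      FpGood (P : Subgroup G) Q)
    (A : Subgroup G) (hA : A ≤ P) (g : G) (hg : ∀ a ∈ A, g * a * g⁻¹ ∈ (P : Subgroup G)) :
    k ≤ Nat.card A → ThReal (normalizer (thZ 0 (P : Subgroup G) : Set G)) A g := by
  refine th_alperin_rad P
    (fun A g => k ≤ Nat.card A → ThReal (normalizer (thZ 0 (P : Subgroup G) : Set G)) A g)
    (fun A D g hAD h hA => (h (hA.trans (card_le_of_le hAD))).mono hAD)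
    (fun A g h h1 h2 hA => (h1 hA).mul (h2 (by rwa [Tr.card_map_conj])))
    (fun A g h hA => (h (by rwa [Tr.card_map_conj] at hA)).inv)
    (fun A c hc _ => thReal_of_centralizer hc) ?_ A hA g hg
  intro B hB _ hrad _ n hn hkB
  rcases hB.eq_or_lt with rfl | hlt
  · exact thReal_of_mem (normalizer_le_normalizer_thZ 0 _ hn)
  have h1 := fpAdm_of_rad P hP hB hrad
  have h2 := hk B h1 (hkB.trans_lt (card_lt_of_lt (Tr.lt_inf_normalizer P.isPGroup' hlt)))
  exact h.real inf_le_left h1.2.2 hB (le_normalizer.trans h2) hn (h2 hn)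

/-- A bad admissible subgroup with largest normalizer is fully normalized. -/
theorem FpK.sylow (P : Sylow p G) (h : FpK (P : Subgroup G)) (hP : FpAdm (P : Subgroup G) P)
    (hQ : FpAdm (P : Subgroup G) Q) (hb : ¬ FpGood (P : Subgroup G) Q)
    (hk : ∀ R : Subgroup G, FpAdm (P : Subgroup G) R →
      Nat.card ((P : Subgroup G) ⊓ normalizer (Q : Set G) : Subgroup G) <
        Nat.card ((P : Subgroup G) ⊓ normalizer (R : Set G) : Subgroup G) →
      FpGood (P : Subgroup G) R) :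
    ¬ p ∣ ((P : Subgroup G) ⊓ normalizer (Q : Set G)).relIndex (normalizer (Q : Set G)) := by
  intro hfn
  set S := (P : Subgroup G) ⊓ normalizer (Q : Set G) with hS
  obtain ⟨T, hST, hTN, hT, hTi⟩ := Tr.exists_sylowIn_ge (p := p) (T := S)
    (P.isPGroup'.to_le inf_le_left) inf_le_right
  have hlt : S < T := lt_of_le_of_ne hST fun he => hTi (he ▸ hfn)
  obtain ⟨g, hg⟩ := Tr.exists_conj_le_sylow P hT
  have hQS : Q ≤ S := le_inf hQ.2.1 le_normalizer
  obtain ⟨k, hk1, hk2⟩ := h.large P hP _ hk S inf_le_left g (fun a ha => hg a (hST ha)) le_rfl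
  have e1 : Q.map (MulAut.conj g).toMonoidHom = Q.map (MulAut.conj k).toMonoidHom :=
    le_antisymm (Tr.map_conj_le_iff.2 fun a ha => hk2 a (hQS ha) ▸ Tr.conj_mem_map_conj.2 ha)
      (Tr.map_conj_le_iff.2 fun a ha => hk2 a (hQS ha) ▸ Tr.conj_mem_map_conj.2 ha)
  have e2 : thZ 0 (P : Subgroup G) ⊓ Q.map (MulAut.conj k).toMonoidHom =
      (thZ 0 (P : Subgroup G) ⊓ Q).map (MulAut.conj k).toMonoidHom := by
    rw [Tr.map_conj_inf, Tr.map_conj_eq_of_mem hk1]
  have e3 := Tr.map_conj_eq_of_mem (A := (thZ 0 (P : Subgroup G)).normalCore)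
    (th_le_norm (mem_top k))
  have h1 := hk (Q.map (MulAut.conj k).toMonoidHom) ⟨e3 ▸ map_mono hQ.1,
    e1 ▸ Tr.map_conj_le_iff.2 fun a ha => hg a (hST (hQS ha)), fun h2 => hQ.2.2 ?_⟩ ?_
  · rw [FpGood, e2, Tr.normalizer_map_conj, Tr.normalizer_map_conj,
      map_le_map_iff_of_injective (MulAut.conj k).injective] at h1
    exact hb h1
  · rwa [e2, ← e3, map_le_map_iff_of_injective (MulAut.conj k).injective] at h2
  · refine (card_lt_of_lt hlt).trans_le (Tr.card_map_conj T g ▸ card_le_of_le ?_)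
    refine le_inf (Tr.map_conj_le_iff.2 hg) ?_
    rw [← e1, Tr.normalizer_map_conj]
    exact map_mono hTN

theorem FpK.hasF (hp2 : p ≠ 2) (P : Sylow p G) (h : FpK (P : Subgroup G))
    (hP : FpAdm (P : Subgroup G) P)
    (hQ : FpAdm (P : Subgroup G) Q) (hb : ¬ FpGood (P : Subgroup G) Q)
    (hk : ∀ R : Subgroup G, FpAdm (P : Subgroup G) R →
      Nat.card ((P : Subgroup G) ⊓ normalizer (Q : Set G) : Subgroup G) <
        Nat.card ((P : Subgroup G) ⊓ normalizer (R : Set G) : Subgroup G) →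
      FpGood (P : Subgroup G) R)
    (hk' : ∀ R : Subgroup G, FpAdm (P : Subgroup G) R → Q < R →
      (P : Subgroup G) ⊓ normalizer (Q : Set G) ≤ normalizer (R : Set G) →
      FpGood (P : Subgroup G) R) (hnm : (n : ZMod p) * m = 1) :
    HasF p n m (normalizer (thZ 0 (P : Subgroup G) : Set G))
      (normalizer (thZ 0 (P : Subgroup G) : Set G)) (thZ 0 (P : Subgroup G)) := by
  have hi := h.sylow P hP hQ hb hk
  obtain ⟨z, hz, hz1, hz2⟩ := hQ.exists_central P.isPGroup' le_rfl hQ.2.1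
  set Z := thZ 0 (P : Subgroup G) with hZ
  set Z₀ := Z.normalCore with hZ₀
  set N := normalizer (Q : Set G) with hN
  set T := (P : Subgroup G) ⊓ N with hT
  set X := Z ⊓ (Q ⊓ cmod Q Z₀) with hX
  set B := fpCl N X with hB
  have hQT : Q ≤ T := le_inf hQ.2.1 le_normalizer
  have hN1 : N ≤ normalizer ((Q ⊓ cmod Q Z₀ : Subgroup G) : Set G) :=
    CopAct.le_normalizer_inf le_rfl (le_normalizer_cmod le_rfl th_le_norm)
  have hB1 : B ≤ Q ⊓ cmod Q Z₀ := fpCl_le inf_le_right hN1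
  have hBQ : B ≤ Q := hB1.trans inf_le_left
  have hXB : X ≤ B := le_fpCl N X
  have hNB : N ≤ normalizer (B : Set G) := le_normalizer_fpCl N X
  have hZB : Z ⊓ B = X := le_antisymm (inf_le_inf_left _ hB1) (le_inf inf_le_left hXB)
  have hX0 : ¬ X ≤ Z₀ := fun h1 => hz1 (h1 ⟨hz.1, hz.2, hz2⟩)
  have hZX : Z₀ ≤ X := le_inf (normalCore_le _)
    (le_inf hQ.1 (le_cmod.2 ⟨th_le_norm, commutator_le_left _ _⟩))
  have hTX : T ≤ normalizer (X : Set G) :=
    CopAct.le_normalizer_inf (inf_le_left.trans (le_normalizer_thZ 0 _)) (inf_le_right.trans hN1)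
  have hNX : ¬ N ≤ normalizer (X : Set G) := fun h1 => hb (fpGood_of_real fun g hg =>
    h.real inf_le_left hX0 hQ.2.1 (hQT.trans hTX) hg (h1 hg))
  have hBQ' : ⁅B, Q⁆ ≤ Z₀ := (le_cmod.1 (hB1.trans inf_le_right)).2
  have hgood : ∀ R : Subgroup G, B ≤ R → FpGood (P : Subgroup G) R →
      N ⊓ normalizer (R : Set G) ≤ normalizer (X : Set G) := fun R h1 h2 => by
    have h3 : X = Z ⊓ R ⊓ B := by rw [inf_assoc, inf_eq_right.2 h1, hZB]
    rw [h3]
    exact CopAct.le_normalizer_inf (inf_le_right.trans h2) (inf_le_left.trans hNB)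
  obtain ⟨u, hu, huQ, hu2⟩ : ∃ u ∈ T, u ∉ Q ∧ ∀ b ∈ B, ⁅u, ⁅u, b⁆⁆ ∈ Z₀ := by
    rcases (inf_le_left : T ≤ P).eq_or_lt with he | hlt
    · obtain ⟨u, h1, h2, h3⟩ := fp_quad_of_not_le_thZ hp2 P.isPGroup' hQ.2.1 hBQ
        ((he.ge.trans inf_le_right).trans hNB)
        (((commutator_mono le_rfl hBQ).trans hBQ').trans (normalCore_le _))
        (fun h1 => hNX (by rwa [← hZB, inf_eq_right.2 h1])) fun h1 =>
          fpCl_le (inf_le_left.trans ((thZ_le_centralizer 0 _).trans (centralizer_le h1)))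
            ((normalizer_le_normalizer_thJ 0 Q).trans (Tr.normalizer_le_normalizer_centralizer _))
      exact ⟨u, he.ge h1, h2, fun b hb => h3 b hb ▸ one_mem _⟩
    set π := QuotientGroup.mk' Z₀
    have hc : B.map π ≤ centralizer (Q.map π : Set (G ⧸ Z₀)) := by
      rw [← commutator_eq_bot_iff_le_centralizer, ← map_commutator, map_mk'_eq_bot_iff]
      exact hBQ'
    have hπ : ∀ D : Subgroup G, Z₀ ≤ D → (D.map π).comap π = D := fun D h1 => by
      rw [comap_map_mk', sup_eq_left.2 h1]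
    suffices hJ : ¬ thJ 0 (T.map π) ≤ Q.map π by
      obtain ⟨_, ⟨u, h1, rfl⟩, h2, h3⟩ := fp_quad_of_not_le ((P.isPGroup'.to_le hlt.le).map π)
        (map_mono hQT) (map_mono hBQ) (map_le_normalizer_map (inf_le_right.trans hNB) π) hc hJ
      refine ⟨u, h1, fun h4 => h2 (mem_map_of_mem π h4), fun b hb => ?_⟩
      have := h3 _ (mem_map_of_mem π hb)
      rw [← map_commutatorElement, ← map_commutatorElement] at this
      exact (QuotientGroup.eq_one_iff _).1 this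
    intro h1
    have h2 := thJ_eq_of_le h1 (map_mono hQT)
    have h3 : B ≤ (thJ 0 (T.map π)).comap π := by
      rw [← h2]
      exact map_le_iff_le_comap.1 (((le_inf (map_mono hBQ) hc).trans
        (center_le_thZ_zero _)).trans (thZ_le_thJ 0 _))
    have h4 := hgood _ h3 (hk _ ⟨hZX.trans (hXB.trans h3),
      ((comap_mono (thJ_le 0 _)).trans (hπ T (hQ.1.trans hQT)).le).trans hlt.le,
      fun h4 => hX0 ((le_inf inf_le_left (hXB.trans h3)).trans h4)⟩
      ((card_lt_of_lt (Tr.lt_inf_normalizer P.isPGroup' hlt)).trans_le (card_le_of_le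
        (inf_le_inf_left _ (le_normalizer_comap_of_map_le ((le_normalizer_map π).trans
          (normalizer_le_normalizer_thJ 0 _)))))))
    refine hNX ((le_inf le_rfl ?_).trans h4)
    rw [← h2]
    exact le_normalizer_comap_of_map_le ((le_normalizer_map π).trans
      (normalizer_le_normalizer_thJ 0 _))
  have h1 := hasF_of_local_sub (n := n) (m := m) hp2 hZX hXB (hBQ.trans hQT) inf_le_right
    th_le_norm hNB (P.isPGroup'.to_le inf_le_left) hi ((commutator_mono le_rfl hBQ).trans hBQ')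
    hTX hNX (fun R h1 h2 h3 => ?_) hnm
  · exact (h1.realize hXB (inf_le_left.trans hNB) fun g hg => h.real inf_le_left hX0
      (hBQ.trans hQ.2.1) ((hBQ.trans hQT).trans hTX) (hNB hg.1) hg.2).mono le_rfl
      ((hBQ.trans hQ.2.1).trans (le_normalizer_thZ 0 _)) inf_le_left
  have h4 : Q ≤ R := fun q hq => h3 q (hQT hq) fun b hb => by
    refine commutator_le_right ⊤ Z₀ (commutator_mem_commutator (mem_top _) ?_)
    rw [← commutatorElement_inv]
    exact inv_mem (hBQ' (commutator_mem_commutator hb hq))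
  exact hgood R (hBQ.trans h4) (hk' R ⟨hQ.1.trans h4, h1.trans inf_le_left,
    fun h5 => hQ.2.2 ((inf_le_inf_left _ h4).trans h5)⟩
    (lt_of_le_of_ne h4 fun h5 => huQ (h5 ▸ h3 u hu hu2)) h2)

theorem FpK.ctrl_or (hp2 : p ≠ 2) (P : Sylow p G) (h : FpK (P : Subgroup G))
    (hnm : (n : ZMod p) * m = 1) :
    ThCtrl ⊤ (normalizer (thZ 0 (P : Subgroup G) : Set G)) P ∨
      HasF p n m (normalizer (thZ 0 (P : Subgroup G) : Set G))
        (normalizer (thZ 0 (P : Subgroup G) : Set G)) (thZ 0 (P : Subgroup G)) := by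
  by_cases hZ : thZ 0 (P : Subgroup G) ≤ (thZ 0 (P : Subgroup G)).normalCore
  · rw [le_antisymm hZ (normalCore_le _)]
    exact Or.inl (thCtrl_of_le th_le_norm)
  have hP : FpAdm (P : Subgroup G) P := ⟨(normalCore_le _).trans (thZ_le 0 _), le_rfl,
    fun h1 => hZ ((le_inf le_rfl (thZ_le 0 _)).trans h1)⟩
  by_cases hb : ∃ Q, FpAdm (P : Subgroup G) Q ∧ ¬ FpGood (P : Subgroup G) Q
  swap
  · push Not at hb
    exact Or.inl fun A hA g _ hg => h.large P hP 0 (fun Q hQ _ => hb Q hQ) A hA g hg (Nat.zero_le _)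
  obtain ⟨Q₀, hQ₀, h0⟩ := Set.exists_max_image
    {Q | FpAdm (P : Subgroup G) Q ∧ ¬ FpGood (P : Subgroup G) Q}
    (fun Q => Nat.card ((P : Subgroup G) ⊓ normalizer (Q : Set G) : Subgroup G)) (Set.toFinite _) hb
  obtain ⟨Q, ⟨hQ, h1⟩, h2⟩ := Set.exists_max_image
    {Q | (FpAdm (P : Subgroup G) Q ∧ ¬ FpGood (P : Subgroup G) Q) ∧
      Nat.card ((P : Subgroup G) ⊓ normalizer (Q₀ : Set G) : Subgroup G) ≤
        Nat.card ((P : Subgroup G) ⊓ normalizer (Q : Set G) : Subgroup G)}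
    (fun Q => Nat.card Q) (Set.toFinite _) ⟨Q₀, hQ₀, le_rfl⟩
  refine Or.inr (h.hasF hp2 P hP hQ.1 hQ.2 (fun R h3 h4 => by_contra fun h5 => ?_)
    (fun R h3 h4 h5 => by_contra fun h6 => ?_) hnm)
  · exact absurd ((h0 R ⟨h3, h5⟩).trans h1) h4.not_ge
  · exact absurd (h2 R ⟨⟨h3, h6⟩, h1.trans (card_le_of_le (le_inf inf_le_left h5))⟩)
      (card_lt_of_lt h4).not_ge

end Global

/-- **Glauberman**: if `Z(J(S))` does not control strong fusion, its normalizer contains the data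
of a section `F(p)`. -/
theorem thCtrl_or_hasF {p : ℕ} [Fact p.Prime] (hp2 : p ≠ 2) {n m : ℕ}
    (hnm : (n : ZMod p) * m = 1) (G : Type u) [Group G] [Finite G] (P : Sylow p G) :
    ThCtrl ⊤ (normalizer (thZ 0 (P : Subgroup G) : Set G)) P ∨
      HasF p n m (normalizer (thZ 0 (P : Subgroup G) : Set G))
        (normalizer (thZ 0 (P : Subgroup G) : Set G)) (thZ 0 (P : Subgroup G)) := by
  revert P
  refine subgroup_quotient_induction (P := fun G _ _ => ∀ P : Sylow p G,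
    ThCtrl ⊤ (normalizer (thZ 0 (P : Subgroup G) : Set G)) P ∨
      HasF p n m (normalizer (thZ 0 (P : Subgroup G) : Set G))
        (normalizer (thZ 0 (P : Subgroup G) : Set G)) (thZ 0 (P : Subgroup G))) ?_ G
  intro G _ _ ih _ P
  by_contra hc
  refine hc (FpK.ctrl_or hp2 P (fun X h1 h2 => ?_) hnm)
  have hJ : thJ 0 (P : Subgroup G) ≤ normalizer (X : Set G) :=
    (thJ_le_centralizer_thZ 0 _).trans ((centralizer_le h1).trans (centralizer_le_normalizer _))
  obtain ⟨T, hST, hTN, hT, hTi⟩ := Tr.exists_sylowIn_ge (p := p)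
    (T := (P : Subgroup G) ⊓ normalizer (X : Set G)) (P.isPGroup'.to_le inf_le_left) inf_le_right
  obtain ⟨g, hg⟩ := Tr.exists_conj_le_sylow P hT
  have e : thZ 0 T = thZ 0 (P : Subgroup G) := by
    rw [thZ, thZ, fp_thJ_eq ((le_inf (thJ_le 0 _) hJ).trans hST) hg]
  have hne : normalizer (X : Set G) ≠ ⊤ := fun ht => by
    have := normalizer_eq_top_iff.1 ht
    exact h2 (normal_le_normalCore.2 h1)
  rcases ih (normalizer (X : Set G)) hne (Tr.sylowOfRel hT hTi) with h3 | h3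
  · have h4 := ThCtrl.of_subgroup_thZ le_rfl hTN h3
    rw [e] at h4
    exact fun A hA k hk h5 => (h4 A (hA.trans hST) k hk fun a ha => hST (h5 a ha)).of_le
      inf_le_right
  · have h4 := h3.map (normalizer (X : Set G)).subtype_injective
    rw [Tr.coe_sylowOfRel, thZ_subgroupOf hTN, map_normalizer_subtype,
      map_subtype_subgroupOf_of_le ((thZ_le 0 T).trans hTN), e] at h4
    exact (hc (Or.inr (h4.mono inf_le_right inf_le_right le_rfl))).elim

end Cfsg.Agent.GT
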