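import Mathlib
import Cfsg.Agent.GT.TransferCocycle

/-!
# The principal ideal theorem (Furtwängler; proof of Witt)
-/

set_option autoImplicit false

namespace Cfsg.Agent.GT.Tr

open Subgroup MonoidAlgebra

theorem det_smul_eq_zero_of_sum {Λ W ι : Type*} [CommRing Λ] [AddCommGroup W] [Module Λ W]
    [Fintype ι] [DecidableEq ι] (M : Matrix ι ι Λ) (x : ι → W) (h : ∀ i, ∑ j, M i j • x j = 0)
    (k : ι) : M.det • x k = 0 := by
  have h1 : ∑ j, (M.adjugate * M) k j • x j = 0 := by
    simp only [Matrix.mul_apply, Finset.sum_smul, mul_smul]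
    rw [Finset.sum_comm]
    exact Finset.sum_eq_zero fun i _ => by rw [← Finset.smul_sum, h, smul_zero]
  rw [Matrix.adjugate_mul] at h1
  simpa [Matrix.one_apply, ite_smul] using h1

/-- A subgroup of finite index of `ℤ ^ ι` contains the rows of a matrix whose determinant is the
index up to sign. -/
theorem exists_matrix_natAbs_det_eq_index {ι : Type*} [Fintype ι] [DecidableEq ι]
    (N : AddSubgroup (ι → ℤ)) [N.FiniteIndex] :
    ∃ M : Matrix ι ι ℤ, (∀ i, M i ∈ N) ∧ M.det.natAbs = N.index := by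
  have : Module.Free ℤ N := inferInstanceAs (Module.Free ℤ N.toIntSubmodule)
  have : Module.Finite ℤ N := inferInstanceAs (Module.Finite ℤ N.toIntSubmodule)
  let b := (Module.finBasisOfFinrankEq ℤ N (n := Fintype.card ι)
    (by rw [N.finrank_eq_of_finiteIndex, Module.finrank_fintype_fun_eq_card])).reindex
    (Fintype.equivFin ι).symm
  refine ⟨Matrix.of fun i => (b i : ι → ℤ), fun i => (b i).2, ?_⟩
  rw [N.index_eq_natAbs_det (Pi.basisFun ℤ ι) b, Pi.basisFun_det_apply]

variable {G Γ : Type*} [Group G] [Finite G] [CommGroup Γ] [Fintype Γ]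

theorem exists_smul_derivation_eq_zero (π : G →* Γ) (hπ : Function.Surjective π)
    (hker : π.ker ≤ commutator G) {W : Type*} [AddCommGroup W] [Module (MonoidAlgebra ℤ Γ) W]
    (d : G → W) (hd : ∀ g h, d (g * h) = d g + (single (π g) 1 : MonoidAlgebra ℤ Γ) • d h) :
    ∃ δ : MonoidAlgebra ℤ Γ, (lift ℤ ℤ Γ 1 δ).natAbs = Fintype.card Γ ∧ ∀ g, δ • d g = 0 := by
  classical
  have := Fintype.ofFinite G
  let ε := lift ℤ ℤ Γ 1
  let J : Submodule (MonoidAlgebra ℤ Γ) W :=
    (Submodule.pi Set.univ fun _ => RingHom.ker ε).map (Fintype.linearCombination _ d)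
  let D : G →* Multiplicative (W ⧸ J) := MonoidHom.mk' (fun g => .ofAdd (J.mkQ (d g))) fun g h => by
    rw [← ofAdd_add, ← map_add, hd]
    congr 1
    rw [Submodule.mkQ_apply, Submodule.mkQ_apply, Submodule.Quotient.eq, add_sub_add_left_eq_sub]
    refine ⟨Pi.single h (single (π g) 1 - 1), fun i _ => ?_, ?_⟩
    · by_cases hi : i = h
      · subst hi
        simp [ε]
      · simp [hi]
    · simp [sub_smul]
  have hD : π.ker ≤ D.ker := hker.trans (Abelianization.commutator_subset_ker D)
  let D' := π.liftOfSurjective hπ ⟨D, hD⟩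
  let L : (G → ℤ) →ₗ[ℤ] Additive Γ := Fintype.linearCombination ℤ fun g => .ofMul (π g)
  have hL : L.toAddMonoidHom.range = ⊤ := eq_top_iff.2 fun γ _ => by
    obtain ⟨g, hg⟩ := hπ γ.toMul
    exact ⟨Pi.single g 1, by simp [L, hg]⟩
  have hi : L.toAddMonoidHom.ker.index = Fintype.card Γ := by
    rw [AddSubgroup.index_ker, hL, AddSubgroup.card_top, Nat.card_eq_fintype_card,
      Fintype.card_additive]
  have : L.toAddMonoidHom.ker.FiniteIndex := ⟨hi ▸ Fintype.card_ne_zero⟩
  obtain ⟨M, hM1, hM2⟩ := exists_matrix_natAbs_det_eq_index L.toAddMonoidHom.ker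
  have key : ∀ i, ∃ μ : G → MonoidAlgebra ℤ Γ, (∀ j, ε (μ j) = 0) ∧
      ∑ j, μ j • d j = ∑ j, M i j • d j := by
    intro i
    have h1 : ∑ j, M i j • d j ∈ J := by
      have h3 : ∑ j, M i j • Additive.ofMul (π j) = 0 := hM1 i
      have h2 := congrArg (MonoidHom.toAdditiveLeft D') h3
      rw [map_zero, map_sum] at h2
      rw [← Submodule.Quotient.mk_eq_zero, ← Submodule.mkQ_apply, map_sum, ← h2]
      refine Finset.sum_congr rfl fun j _ => ?_
      rw [map_zsmul, map_zsmul]
      congr 1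
      exact (congrArg Multiplicative.toAdd (π.liftOfRightInverse_comp_apply _ _ ⟨D, hD⟩ j)).symm
    obtain ⟨μ, hμ1, hμ2⟩ := h1
    exact ⟨μ, fun j => hμ1 j trivial, by rw [← hμ2, Fintype.linearCombination_apply]⟩
  choose μ hμ1 hμ2 using key
  let Λ : Matrix G G (MonoidAlgebra ℤ Γ) := Matrix.of fun i j => (M i j : MonoidAlgebra ℤ Γ) - μ i j
  refine ⟨Λ.det, ?_, det_smul_eq_zero_of_sum Λ d fun i => ?_⟩
  · rw [← hi, ← hM2, AlgHom.map_det]
    congr 2
    ext i j
    simp [Λ, ← hμ1 i j, ε]
  · simp only [Λ, Matrix.of_apply, sub_smul, Finset.sum_sub_distrib, hμ2, Int.cast_smul_eq_zsmul,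
      sub_self]

/-- The norm element of `ℤ[G / G']` kills every derivation of `G` into a `G / G'`-module. -/
theorem norm_smul_derivation_eq_zero (π : G →* Γ) (hπ : Function.Surjective π)
    (hker : π.ker ≤ commutator G) {W : Type*} [AddCommGroup W] [Module (MonoidAlgebra ℤ Γ) W]
    (d : G → W) (hd : ∀ g h, d (g * h) = d g + (single (π g) 1 : MonoidAlgebra ℤ Γ) • d h) (g : G) :
    ∑ γ : Γ, (single γ 1 : MonoidAlgebra ℤ Γ) • d g = 0 := by
  classical
  obtain ⟨δ, h1, h2⟩ := exists_smul_derivation_eq_zero π hπ hker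
    (fun g => (d g, (single (π g) 1 - 1 : MonoidAlgebra ℤ Γ))) fun g h => by
      refine Prod.ext (hd g h) ?_
      simp [mul_sub, single_mul_single]
  have h3 : ∀ γ, δ.coeff γ = δ.coeff 1 := by
    intro γ
    obtain ⟨g, rfl⟩ := hπ γ
    have h4 : δ * single (π g) 1 = δ := by
      have := congrArg Prod.snd (h2 g)
      rwa [Prod.smul_snd, smul_eq_mul, mul_sub, mul_one, Prod.snd_zero, sub_eq_zero] at this
    conv_lhs => rw [← h4]
    simp
  have h4 : δ = δ.coeff 1 • ∑ γ : Γ, single γ 1 := by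
    ext γ
    rw [coeff_smul_apply]
    simp [h3 γ, Finsupp.single_apply]
  have h5 : (δ.coeff 1).natAbs = 1 := by
    rw [h4, map_zsmul, map_sum] at h1
    simpa [Int.natAbs_mul] using h1
  have h6 := congrArg Prod.fst (h2 g)
  rw [Prod.smul_fst, h4, smul_assoc, Prod.fst_zero, Finset.sum_smul] at h6
  rcases Int.natAbs_eq_iff.1 h5 with h | h <;> simpa [h] using h6

theorem sum_derivation_eq_zero (π : G →* Γ) (hπ : Function.Surjective π)
    (hker : π.ker ≤ commutator G) {W : Type*} [AddCommGroup W] (ρ : Γ →* AddMonoid.End W)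
    (d : G → W) (hd : ∀ g h, d (g * h) = d g + ρ (π g) (d h)) (g : G) : ∑ γ : Γ, ρ γ (d g) = 0 := by
  let _ : Module (MonoidAlgebra ℤ Γ) W :=
    Module.compHom _ (lift ℤ (AddMonoid.End W) Γ ρ).toRingHom
  have hs : ∀ (γ : Γ) (w : W), (single γ 1 : MonoidAlgebra ℤ Γ) • w = ρ γ w := by
    intro γ w
    change lift ℤ (AddMonoid.End W) Γ ρ (single γ 1) w = _
    rw [lift_single, one_smul]
  simpa only [hs] using norm_smul_derivation_eq_zero π hπ hker d (by simpa only [hs] using hd) g

/-- **The principal ideal theorem**. -/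
theorem transfer_commutator_eq_one :
    MonoidHom.transfer (Abelianization.of : commutator G →* Abelianization (commutator G)) = 1 := by
  classical
  ext g
  let A := Additive (Abelianization (commutator G))
  let Γ := Abelianization G
  have : Fintype Γ := Fintype.ofFinite (G ⧸ commutator G)
  let c : G → Γ → Abelianization (commutator G) := trCocycle Abelianization.of
  have hc : ∀ g h q, c (g * h) q = c g (Abelianization.of h * q) * c h q := by
    intro g h q
    refine (isActCocycle_trCocycle Abelianization.of g h q).trans ?_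
    obtain ⟨t, rfl⟩ := QuotientGroup.mk_surjective q
    rfl
  let ρ : Γ →* AddMonoid.End (Γ → A) :=
    { toFun := fun γ => AddMonoidHom.mk' (fun f q => f (γ⁻¹ * q)) fun _ _ => rfl
      map_one' := AddMonoidHom.ext fun f => funext fun q => by
        change f (1⁻¹ * q) = f q
        rw [inv_one, one_mul]
      map_mul' := fun a b => AddMonoidHom.ext fun f => funext fun q => by
        change f ((a * b)⁻¹ * q) = f (b⁻¹ * (a⁻¹ * q))
        rw [mul_inv_rev, mul_assoc] }
  have h := sum_derivation_eq_zero (Abelianization.of (G := G)) QuotientGroup.mk_surjective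
    (Abelianization.ker_of G).le ρ
    (fun g q => (Additive.ofMul (c g ((Abelianization.of g)⁻¹ * q)) : A)) (fun g h => by
      funext q
      change _ = Additive.ofMul (c g _) + Additive.ofMul (c h (_ * ((Abelianization.of g)⁻¹ * q)))
      rw [hc, ofMul_mul, map_mul, mul_inv_rev, mul_assoc, mul_inv_cancel_left]) g
  have h1 := congrFun h (Abelianization.of g)
  rw [Finset.sum_apply] at h1
  rw [@transfer_eq_prod_trCocycle _ _ _ _ _ _ _ this, MonoidHom.one_apply]
  apply Additive.ofMul.injective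
  rw [ofMul_prod, ofMul_one]
  refine Eq.trans (Fintype.sum_equiv (Equiv.inv Γ) _ _ fun γ => ?_).symm h1
  change Additive.ofMul (c g (_ * (γ⁻¹ * Abelianization.of g))) = Additive.ofMul (c g γ⁻¹)
  rw [mul_comm γ⁻¹, inv_mul_cancel_left]

end Cfsg.Agent.GT.Tr
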